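import Cfsg.Agent.Lib.Helper65.Symp.Defs

/-!
# S3762 farm (helper65), piece [CY]   (file Cfsg/Agent/Lib/Helper65/Symp/CY.lean)

PROOF. U cyclic of order p^n with generator g (as an element of G: IsCyclic.exists_generator in ↥U).  v ∈ V, v = g^j.
If p ∤ j then j is coprime to |U| = p^n, so g ∈ zpowers (g^j) ≤ V, hence U ≤ V: contradiction.  So j = p*k and v = (g^k)^p.
-/

set_option autoImplicit false

namespace Cfsg.Agent.Lib.Helper65.Symp

open Subgroup
open scoped commutatorElement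

variable {G : Type*} [Group G]

/-- the elements of a proper subgroup of a cyclic `p`-group are `p`-th powers -/
theorem pow_of_proper [Finite G] {p : ℕ} [Fact p.Prime] (hG : IsPGroup p G) (U V : Subgroup G)
    (hUc : IsCyclic U) (hVU : V ≤ U) (hne : V ≠ U) : ∀ v ∈ V, ∃ y ∈ U, v = y ^ p := by
  have hp : p.Prime := Fact.out
  obtain ⟨⟨g, hgU⟩, hg⟩ := hUc.exists_generator
  have hgen : ∀ u ∈ U, ∃ n : ℕ, g ^ n = u := by
    intro u hu
    have h1 := hg ⟨u, hu⟩
    rw [← mem_powers_iff_mem_zpowers, Submonoid.mem_powers_iff] at h1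
    obtain ⟨n, hn⟩ := h1
    exact ⟨n, by simpa using congrArg Subtype.val hn⟩
  intro v hv
  obtain ⟨j, rfl⟩ := hgen v (hVU hv)
  by_cases hpj : p ∣ j
  · obtain ⟨k, rfl⟩ := hpj
    exact ⟨g ^ k, U.pow_mem hgU k, by rw [← pow_mul, mul_comm]⟩
  · exfalso
    obtain ⟨k, hk⟩ := (IsPGroup.iff_orderOf.1 hG) g
    have hcop : Nat.Coprime j (orderOf g) := by
      rw [hk]
      exact (((Nat.Prime.coprime_iff_not_dvd hp).2 hpj).symm).pow_right k
    obtain ⟨m, hm⟩ := exists_pow_eq_self_of_coprime hcop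
    have hgV : g ∈ V := by rw [← hm]; exact V.pow_mem hv m
    apply hne
    apply le_antisymm hVU
    intro u hu
    obtain ⟨n, rfl⟩ := hgen u hu
    exact V.pow_mem hgV n

end Cfsg.Agent.Lib.Helper65.Symp
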