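import Cfsg.Agent.Lib.Helper65.Symp.Defs

/-!
# S3762 farm (helper65), piece [PW]   (file Cfsg/Agent/Lib/Helper65/Symp/PW.lean)

PROOF. mul_pow_of_comm: induction on n; with c = ⁅y,x⁆ (so y * x = c * x * y), c commuting with x and y:
 y ^ n * x = c ^ n * x * y ^ n (induction), (x*y)^(n+1) = x^n y^n c^(n(n-1)/2) x y = x^(n+1) y^(n+1) c^(n(n-1)/2 + n); (n+1)*n/2 = n*(n-1)/2 + n.
Cl2.central: A = D ⊓ centralizer D.  Cl2.Z_pow: card Z = p (pow_card_eq_one' in ↥Z).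
Cl2.mul_pow: c = ⁅y,x⁆ ∈ Z ≤ A commutes with x, y; c^p = 1. p = 2: exponent 2*1/2 = 1, z := c ∈ Z = Z0 2 Z. p odd: p ∣ p*(p-1)/2 so c^(..) = 1, z := 1.
Cl2.comm_pow: ⁅x^(n+1), y⁆ = x ⁅x^n,y⁆ x⁻¹ ⁅x,y⁆ and ⁅x^n,y⁆ is central in D.
-/

set_option autoImplicit false

namespace Cfsg.Agent.Lib.Helper65.Symp

open Subgroup
open scoped commutatorElement

variable {G : Type*} [Group G]

theorem PW_pow_mul (x y : G) (hx : Commute ⁅y, x⁆ x) (hy : Commute ⁅y, x⁆ y) (n : ℕ) :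
    y ^ n * x = x * y ^ n * ⁅y, x⁆ ^ n := by
  have hyx : y * x = x * y * ⁅y, x⁆ := by
    have h1 : y * x = ⁅y, x⁆ * x * y := by
      simp only [commutatorElement_def]
      group
    rw [h1, hx.eq, mul_assoc, hy.eq, ← mul_assoc]
  induction n with
  | zero => simp
  | succ n ih =>
    calc y ^ (n + 1) * x = y * (y ^ n * x) := by rw [pow_succ', mul_assoc]
      _ = (y * x) * y ^ n * ⁅y, x⁆ ^ n := by rw [ih]; simp only [mul_assoc]
      _ = x * y * (⁅y, x⁆ * y ^ n) * ⁅y, x⁆ ^ n := by rw [hyx]; simp only [mul_assoc]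
      _ = x * y * (y ^ n * ⁅y, x⁆) * ⁅y, x⁆ ^ n := by rw [(hy.pow_right n).eq]
      _ = x * y ^ (n + 1) * ⁅y, x⁆ ^ (n + 1) := by
        rw [pow_succ' y n, pow_succ' ⁅y, x⁆ n]; simp only [mul_assoc]

theorem mul_pow_of_comm (x y : G) (hx : Commute ⁅y, x⁆ x) (hy : Commute ⁅y, x⁆ y) (n : ℕ) :
    (x * y) ^ n = x ^ n * y ^ n * ⁅y, x⁆ ^ (n * (n - 1) / 2) := by
  induction n with
  | zero => simp
  | succ n ih =>
    have e1 : ⁅y, x⁆ ^ (n * (n - 1) / 2) * (x * y) = (x * y) * ⁅y, x⁆ ^ (n * (n - 1) / 2) :=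
      ((hx.mul_right hy).pow_left _).eq
    calc (x * y) ^ (n + 1) = x ^ n * y ^ n * (⁅y, x⁆ ^ (n * (n - 1) / 2) * (x * y)) := by
          rw [pow_succ, ih]; simp only [mul_assoc]
      _ = x ^ n * (y ^ n * x) * y * ⁅y, x⁆ ^ (n * (n - 1) / 2) := by
          rw [e1]; simp only [mul_assoc]
      _ = x ^ n * x * y ^ n * (⁅y, x⁆ ^ n * y) * ⁅y, x⁆ ^ (n * (n - 1) / 2) := by
          rw [PW_pow_mul x y hx hy n]; simp only [mul_assoc]
      _ = x ^ n * x * y ^ n * (y * ⁅y, x⁆ ^ n) * ⁅y, x⁆ ^ (n * (n - 1) / 2) := by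
          rw [(hy.pow_left n).eq]
      _ = x ^ (n + 1) * y ^ (n + 1) * ⁅y, x⁆ ^ ((n + 1) * (n + 1 - 1) / 2) := by
          rw [Nat.triangle_succ, add_comm (n * (n - 1) / 2) n, pow_add ⁅y, x⁆, pow_succ x n,
            pow_succ y n]
          simp only [mul_assoc]

theorem Cl2.central {p : ℕ} {D A Z : Subgroup G} (c : Cl2 p D A Z) {a x : G} (ha : a ∈ A)
    (hx : x ∈ D) : a * x = x * a := by
  rw [c.hA] at ha
  exact (mem_centralizer_iff.mp ha.2 x hx).symm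

theorem Cl2.A_le {p : ℕ} {D A Z : Subgroup G} (c : Cl2 p D A Z) : A ≤ D := by
  rw [c.hA]
  exact inf_le_left

theorem Cl2.Z_pow {p : ℕ} {D A Z : Subgroup G} (c : Cl2 p D A Z) {z : G} (hz : z ∈ Z) :
    z ^ p = 1 := by
  have h1 : (⟨z, hz⟩ : Z) ^ Nat.card Z = 1 := pow_card_eq_one'
  rw [c.cardZ] at h1
  exact congrArg Subtype.val h1

theorem Cl2.mul_pow {p : ℕ} [Fact p.Prime] {D A Z : Subgroup G} (c : Cl2 p D A Z) {x y : G}
    (hx : x ∈ D) (hy : y ∈ D) : ∃ z ∈ Z0 p Z, (x * y) ^ p = x ^ p * y ^ p * z := by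
  have hc : ⁅y, x⁆ ∈ Z := c.comm y hy x hx
  have hf := mul_pow_of_comm x y (c.central (c.ZA hc) hx) (c.central (c.ZA hc) hy) p
  by_cases h2 : p = 2
  · subst h2
    refine ⟨⁅y, x⁆, by rw [Z0_two]; exact hc, ?_⟩
    rw [hf]
    norm_num
  · refine ⟨1, one_mem _, ?_⟩
    have hodd : 2 ∣ p - 1 := by
      have h3 := (Fact.out : p.Prime).eq_one_or_self_of_dvd 2
      have h4 := (Fact.out : p.Prime).two_le
      have h5 : ¬ 2 ∣ p := fun h => by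
        rcases h3 h with h6 | h6
        · omega
        · exact h2 h6.symm
      omega
    rw [hf, Nat.mul_div_assoc p hodd, pow_mul, c.Z_pow hc, one_pow]

theorem Cl2.comm_pow {p : ℕ} {D A Z : Subgroup G} (c : Cl2 p D A Z) {x y : G}
    (hx : x ∈ D) (hy : y ∈ D) (n : ℕ) : ⁅x ^ n, y⁆ = ⁅x, y⁆ ^ n := by
  induction n with
  | zero => simp
  | succ n ih =>
    have h1 : ⁅x ^ (n + 1), y⁆ = x * ⁅x ^ n, y⁆ * x⁻¹ * ⁅x, y⁆ := by
      simp only [commutatorElement_def, pow_succ']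
      group
    have h2 : ⁅x, y⁆ ^ n * x = x * ⁅x, y⁆ ^ n :=
      c.central (c.ZA (Z.pow_mem (c.comm x hx y hy) n)) hx
    rw [h1, ih, ← h2, mul_inv_cancel_right, pow_succ]

end Cfsg.Agent.Lib.Helper65.Symp
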