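import Cfsg.Agent.Lib.Helper65.Symp.Defs
import Cfsg.Agent.Lib.Helper65.Symp.PW

/-!
# S3762 farm (helper65), piece [HYa]   (file Cfsg/Agent/Lib/Helper65/Symp/HYa.lean)

PROOF (strong induction on Nat.card K, K generalized).  If K = A: D ⊓ centralizer A = D (A is central in D), equality.
Otherwise choose K₀ maximal among the subgroups with A ≤ K₀ < K (finite), x ∈ K \ K₀; then K₀ ⊔ zpowers x = K.
IH: |D||A| ≤ |K₀| |C₀| with C₀ := D ⊓ centralizer K₀.  y ↦ ⁅x, y⁆ is a hom C₀ → Z (⁅x, y y'⁆ = ⁅x,y⁆ * y ⁅x,y'⁆ y⁻¹ = ⁅x,y⁆⁅x,y'⁆ as Z is central in D)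
with kernel D ⊓ centralizer K (an element centralizing K₀ and x centralizes K₀ ⊔ zpowers x), so |C₀| ≤ p |D ⊓ centralizer K| (Subgroup.index_ker / card_range ≤ card Z = p).
|K| ≥ p |K₀| (|K₀| ∣ |K|, both powers of p, K₀ ≠ K).  Multiply.
-/

set_option autoImplicit false

namespace Cfsg.Agent.Lib.Helper65.Symp

open Subgroup
open scoped commutatorElement

variable {G : Type*} [Group G]

theorem HYa_card_sup [Finite G] {p : ℕ} [Fact p.Prime] (hG : IsPGroup p G) (K₀ : Subgroup G)
    (x : G) (hx : x ∉ K₀) : p * Nat.card K₀ ≤ Nat.card ↥(K₀ ⊔ zpowers x) := by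
  obtain ⟨a, ha⟩ := IsPGroup.iff_card.mp (hG.to_subgroup K₀)
  obtain ⟨b, hb⟩ := IsPGroup.iff_card.mp (hG.to_subgroup (K₀ ⊔ zpowers x))
  have hp := (Fact.out : p.Prime)
  have hle : K₀ ≤ K₀ ⊔ zpowers x := le_sup_left
  have hdvd := Subgroup.card_dvd_of_le hle
  rw [ha, hb] at hdvd ⊢
  have hab : a ≤ b := (Nat.pow_dvd_pow_iff_le_right hp.one_lt).mp hdvd
  have hne : a ≠ b := by
    intro h
    apply hx
    have heq : K₀ = K₀ ⊔ zpowers x :=
      Subgroup.eq_of_le_of_card_ge hle (by rw [ha, hb, h])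
    rw [heq]
    exact (le_sup_right : zpowers x ≤ _) (mem_zpowers x)
  rw [← pow_succ']
  exact Nat.pow_le_pow_right hp.pos (by omega)

theorem HYa_card_cent [Finite G] {p : ℕ} {D A Z : Subgroup G} (c : Cl2 p D A Z)
    (K₀ : Subgroup G) (x : G) (hx : x ∈ D) :
    Nat.card ↥(D ⊓ centralizer (K₀ : Set G))
      ≤ p * Nat.card ↥(D ⊓ centralizer ((K₀ ⊔ zpowers x : Subgroup G) : Set G)) := by
  let f : ↥(D ⊓ centralizer (K₀ : Set G)) →* ↥Z :=
    { toFun := fun y => ⟨⁅x, (y : G)⁆, c.comm x hx y y.2.1⟩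
      map_one' := by
        apply Subtype.ext
        simp
      map_mul' := by
        intro y y'
        apply Subtype.ext
        show ⁅x, (y : G) * (y' : G)⁆ = ⁅x, (y : G)⁆ * ⁅x, (y' : G)⁆
        have h1 : ⁅x, (y : G) * (y' : G)⁆ = ⁅x, (y : G)⁆ * ((y : G) * ⁅x, (y' : G)⁆) * (y : G)⁻¹ := by
          simp only [commutatorElement_def]
          group
        rw [h1, ← c.central (c.ZA (c.comm x hx y' y'.2.1)) y.2.1, mul_assoc, mul_assoc,
          mul_inv_cancel, mul_one] }
  have h1 : Nat.card ↥(D ⊓ centralizer (K₀ : Set G)) = Nat.card f.range * Nat.card f.ker := by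
    rw [← Subgroup.index_ker, Subgroup.index_mul_card]
  have h2 : Nat.card f.range ≤ p := by
    rw [← c.cardZ]
    exact Subgroup.card_le_card_group _
  have h3 : Nat.card f.ker
      ≤ Nat.card ↥(D ⊓ centralizer ((K₀ ⊔ zpowers x : Subgroup G) : Set G)) := by
    have h4 : Nat.card (f.ker.map (D ⊓ centralizer (K₀ : Set G)).subtype) = Nat.card f.ker :=
      Subgroup.card_map_of_injective (Subgroup.subtype_injective _)
    rw [← h4]
    apply Subgroup.card_le_of_le
    rintro _ ⟨y, hy, rfl⟩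
    have hy1 : ⁅x, (y : G)⁆ = 1 := congrArg Subtype.val (MonoidHom.mem_ker.mp hy)
    have hxy : x * (y : G) = (y : G) * x := by
      rw [commutatorElement_eq_one_iff_mul_comm] at hy1
      exact hy1
    refine ⟨y.2.1, ?_⟩
    have hle : K₀ ⊔ zpowers x ≤ centralizer {(y : G)} := by
      apply sup_le
      · intro k hk
        rw [mem_centralizer_singleton_iff]
        exact mem_centralizer_iff.mp y.2.2 k hk
      · rw [zpowers_le, mem_centralizer_singleton_iff]
        exact hxy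
    show (y : G) ∈ centralizer ((K₀ ⊔ zpowers x : Subgroup G) : Set G)
    rw [mem_centralizer_iff]
    intro k hk
    exact mem_centralizer_singleton_iff.mp (hle hk)
  calc Nat.card ↥(D ⊓ centralizer (K₀ : Set G)) = Nat.card f.range * Nat.card f.ker := h1
    _ ≤ p * _ := Nat.mul_le_mul h2 h3

theorem Cl2.card_le [Finite G] {p : ℕ} [Fact p.Prime] (hG : IsPGroup p G) {D A Z : Subgroup G}
    (c : Cl2 p D A Z) (K : Subgroup G) (hAK : A ≤ K) (hKD : K ≤ D) :
    Nat.card D * Nat.card A ≤ Nat.card K * Nat.card ↥(D ⊓ centralizer (K : Set G)) := by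
  have hp := (Fact.out : p.Prime)
  have hind : ∀ n : ℕ, ∀ K₀ : Subgroup G, K₀ ≤ K → Nat.card K - Nat.card K₀ ≤ n →
      Nat.card D * Nat.card A ≤ Nat.card K₀ * Nat.card ↥(D ⊓ centralizer (K₀ : Set G)) →
      Nat.card D * Nat.card A ≤ Nat.card K * Nat.card ↥(D ⊓ centralizer (K : Set G)) := by
    intro n
    induction n with
    | zero =>
      intro K₀ hK₀ hn hP
      have heq : K₀ = K := Subgroup.eq_of_le_of_card_ge hK₀ (by omega)
      rw [← heq]
      exact hP
    | succ n ih =>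
      intro K₀ hK₀ hn hP
      by_cases heq : K₀ = K
      · rw [← heq]
        exact hP
      · obtain ⟨x, hxK, hxK₀⟩ := SetLike.exists_of_lt (lt_of_le_of_ne hK₀ heq)
        have h1 := HYa_card_sup hG K₀ x hxK₀
        have h2 := HYa_card_cent c K₀ x (hKD hxK)
        have hpos : 0 < Nat.card K₀ := Nat.card_pos
        have hlt : Nat.card K₀ < Nat.card ↥(K₀ ⊔ zpowers x) := by
          have := hp.two_le
          nlinarith
        apply ih (K₀ ⊔ zpowers x) (sup_le hK₀ (zpowers_le.mpr hxK)) (by omega)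
        calc Nat.card D * Nat.card A
            ≤ Nat.card K₀ * Nat.card ↥(D ⊓ centralizer (K₀ : Set G)) := hP
          _ ≤ Nat.card K₀ *
              (p * Nat.card ↥(D ⊓ centralizer ((K₀ ⊔ zpowers x : Subgroup G) : Set G))) :=
            Nat.mul_le_mul_left _ h2
          _ = (p * Nat.card K₀) *
              Nat.card ↥(D ⊓ centralizer ((K₀ ⊔ zpowers x : Subgroup G) : Set G)) := by ring
          _ ≤ _ := Nat.mul_le_mul_right _ h1
  apply hind _ A hAK le_rfl
  have hDA : D ⊓ centralizer (A : Set G) = D := by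
    rw [inf_eq_left]
    intro d hd
    rw [mem_centralizer_iff]
    intro a ha
    exact c.central ha hd
  rw [hDA, mul_comm]

end Cfsg.Agent.Lib.Helper65.Symp
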