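import Cfsg.Agent.Lib.Helper65.Symp.Defs
import Cfsg.Agent.Lib.Helper65.Symp.PW
import Cfsg.Agent.Lib.Helper65.Symp.HYa

/-!
# S3762 farm (helper65), piece [HYb]   (file Cfsg/Agent/Lib/Helper65/Symp/HYb.lean)

PROOF.  C := D ⊓ centralizer K ≥ A.  card_le and |D| = p|K| give p |A| ≤ |C|, so C ≠ A: take t ∈ C, t ∉ A.
If t ∉ K then K < K ⊔ zpowers t ≤ D and |D| = p |K| force K ⊔ zpowers t = D (card (K ⊔ ..) is a multiple of |K|, divides p|K|, is > |K|);
t centralizes K and itself, hence D, so t ∈ D ⊓ centralizer D = A: contradiction.  So t ∈ K.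
-/

set_option autoImplicit false

namespace Cfsg.Agent.Lib.Helper65.Symp

open Subgroup
open scoped commutatorElement

variable {G : Type*} [Group G]

/-- hyperplane lemma -/
theorem Cl2.hyperplane [Finite G] {p : ℕ} [Fact p.Prime] (hG : IsPGroup p G) {D A Z : Subgroup G}
    (c : Cl2 p D A Z) (K : Subgroup G) (hAK : A ≤ K) (hKD : K ≤ D)
    (hcard : Nat.card D = p * Nat.card K) : ∃ t ∈ K, t ∉ A ∧ ∀ k ∈ K, t * k = k * t := by
  have hp := (Fact.out : p.Prime)
  have hAC : A ≤ D ⊓ centralizer (K : Set G) := by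
    intro a ha
    refine ⟨c.A_le ha, ?_⟩
    show a ∈ centralizer (K : Set G)
    rw [mem_centralizer_iff]
    intro k hk
    exact (c.central ha (hKD hk)).symm
  have h1 := c.card_le hG K hAK hKD
  rw [hcard] at h1
  have hKpos : 0 < Nat.card K := Nat.card_pos
  have hApos : 0 < Nat.card A := Nat.card_pos
  have h2 : p * Nat.card A ≤ Nat.card ↥(D ⊓ centralizer (K : Set G)) := by
    have h3 : Nat.card K * (p * Nat.card A)
        ≤ Nat.card K * Nat.card ↥(D ⊓ centralizer (K : Set G)) := by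
      calc Nat.card K * (p * Nat.card A) = p * Nat.card K * Nat.card A := by ring
        _ ≤ _ := h1
    exact Nat.le_of_mul_le_mul_left h3 hKpos
  have hne : A ≠ D ⊓ centralizer (K : Set G) := by
    intro h
    rw [← h] at h2
    have := hp.two_le
    nlinarith
  obtain ⟨t, htC, htA⟩ := SetLike.exists_of_lt (lt_of_le_of_ne hAC hne)
  have htc : ∀ k ∈ K, t * k = k * t := fun k hk => (mem_centralizer_iff.mp htC.2 k hk).symm
  refine ⟨t, ?_, htA, htc⟩
  by_contra htK
  apply htA
  have h4 := HYa_card_sup hG K t htK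
  have hle : K ⊔ zpowers t ≤ D := sup_le hKD (zpowers_le.mpr htC.1)
  have heq : K ⊔ zpowers t = D := Subgroup.eq_of_le_of_card_ge hle (by rw [hcard]; exact h4)
  rw [c.hA]
  refine ⟨htC.1, ?_⟩
  have hle2 : K ⊔ zpowers t ≤ centralizer {t} := by
    apply sup_le
    · intro k hk
      rw [mem_centralizer_singleton_iff]
      exact (htc k hk).symm
    · rw [zpowers_le, mem_centralizer_singleton_iff]
  show t ∈ centralizer (D : Set G)
  rw [mem_centralizer_iff]
  intro d hd
  rw [← heq] at hd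
  exact mem_centralizer_singleton_iff.mp (hle2 hd)

end Cfsg.Agent.Lib.Helper65.Symp
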