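import Cfsg.Agent.Lib.Helper65.Symp.Defs
import Cfsg.Agent.Lib.Helper65.Symp.PW
import Cfsg.Agent.Lib.Helper65.Symp.CY

/-!
# S3762 farm (helper65), piece [KS]   (file Cfsg/Agent/Lib/Helper65/Symp/KS.lean)

PROOF.  K := {x ∈ D | ∃ a ∈ A, (x*a)^p ∈ Z0 p Z}.
-/

set_option autoImplicit false

namespace Cfsg.Agent.Lib.Helper65.Symp

open Subgroup
open scoped commutatorElement

variable {G : Type*} [Group G]

/-- the subgroup `K` -/
def KS_K {p : ℕ} [Fact p.Prime] {D A Z : Subgroup G} (c : Cl2 p D A Z) : Subgroup G where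
  carrier := {x | x ∈ D ∧ ∃ a ∈ A, (x * a) ^ p ∈ Z0 p Z}
  one_mem' := ⟨D.one_mem, 1, A.one_mem, by simp⟩
  mul_mem' := by
    rintro x y ⟨hx, a, ha, hxa⟩ ⟨hy, b, hb, hyb⟩
    refine ⟨D.mul_mem hx hy, a * b, A.mul_mem ha hb, ?_⟩
    have h1 : x * y * (a * b) = (x * a) * (y * b) := by
      calc x * y * (a * b) = x * (y * a) * b := by group
        _ = x * (a * y) * b := by rw [c.central ha hy]
        _ = (x * a) * (y * b) := by group
    obtain ⟨z, hz, hzeq⟩ := c.mul_pow (D.mul_mem hx (c.A_le ha)) (D.mul_mem hy (c.A_le hb))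
    rw [h1, hzeq]
    exact (Z0 p Z).mul_mem ((Z0 p Z).mul_mem hxa hyb) hz
  inv_mem' := by
    rintro x ⟨hx, a, ha, hxa⟩
    refine ⟨D.inv_mem hx, a⁻¹, A.inv_mem ha, ?_⟩
    have h1 : x⁻¹ * a⁻¹ = (x * a)⁻¹ := by
      rw [← c.central ha hx, mul_inv_rev]
    rw [h1, inv_pow]
    exact (Z0 p Z).inv_mem hxa

theorem KS_char_mem {H : Subgroup G} (hH : H.Characteristic) (φ : G ≃* G) (x : G) :
    φ x ∈ H ↔ x ∈ H := by
  have h1 := hH.fixed φ
  constructor
  · intro h
    rw [← h1]; exact h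
  · intro h
    rw [← h1] at h; exact h

theorem Cl2.exists_K [Finite G] {p : ℕ} [Fact p.Prime] (hG : IsPGroup p G) {D A Z : Subgroup G}
    (c : Cl2 p D A Z) (hAc : IsCyclic A) (hD : D.Characteristic) (hZ : Z.Characteristic) :
    ∃ K : Subgroup G, K.Characteristic ∧ A ≤ K ∧ K ≤ D ∧
      (∀ x, x ∈ K ↔ x ∈ D ∧ ∃ a ∈ A, (x * a) ^ p ∈ Z0 p Z) ∧
      (K = D ∨ Nat.card D = p * Nat.card K) := by
  have hp : p.Prime := Fact.out
  have hmem : ∀ x, x ∈ KS_K c ↔ x ∈ D ∧ ∃ a ∈ A, (x * a) ^ p ∈ Z0 p Z := fun x => Iff.rfl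
  have hAK : A ≤ KS_K c := by
    intro x hx
    rw [hmem]
    exact ⟨c.A_le hx, x⁻¹, A.inv_mem hx, by simp⟩
  have hKD : KS_K c ≤ D := fun x hx => hx.1
  have hZ0 : (Z0 p Z).Characteristic := by
    unfold Z0
    split_ifs
    · exact hZ
    · infer_instance
  have hAchar : ∀ (φ : G ≃* G) (a : G), a ∈ A → φ a ∈ A := by
    intro φ a ha
    rw [c.hA, mem_inf, mem_centralizer_iff]
    refine ⟨(KS_char_mem hD φ a).2 (c.A_le ha), fun y hy => ?_⟩
    have hy' : φ.symm y ∈ D := by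
      rw [← KS_char_mem hD φ, MulEquiv.apply_symm_apply]; exact hy
    have h1 := c.central ha hy'
    have h2 := congrArg φ h1
    rw [map_mul, map_mul, MulEquiv.apply_symm_apply] at h2
    exact h2.symm
  have hKchar : (KS_K c).Characteristic := by
    rw [characteristic_iff_le_comap]
    intro φ x hx
    rw [mem_comap]
    obtain ⟨hxD, a, ha, hxa⟩ := hx
    refine ⟨(KS_char_mem hD φ x).2 hxD, φ a, hAchar φ a ha, ?_⟩
    have h1 : (φ.toMonoidHom x * φ a) ^ p = φ ((x * a) ^ p) := by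
      rw [map_pow, map_mul]; rfl
    rw [h1]
    exact (KS_char_mem hZ0 φ _).2 hxa
  refine ⟨KS_K c, hKchar, hAK, hKD, hmem, ?_⟩
  by_cases hKeq : KS_K c = D
  · exact Or.inl hKeq
  right
  have hKn : (KS_K c).Normal := inferInstance
  obtain ⟨x, hxD, hxK⟩ : ∃ x ∈ D, x ∉ KS_K c := by
    by_contra hcon
    push Not at hcon
    exact hKeq (le_antisymm hKD hcon)
  have hxpA : x ^ p ∈ A := c.pow x hxD
  have hzp : zpowers (x ^ p) = A := by
    by_contra hne
    obtain ⟨y, hy, hyeq⟩ := pow_of_proper hG A (zpowers (x ^ p)) hAc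
      (by rw [zpowers_le]; exact hxpA) hne (x ^ p) (mem_zpowers _)
    apply hxK
    rw [hmem]
    refine ⟨hxD, y⁻¹, A.inv_mem hy, ?_⟩
    have hcomm : Commute x y⁻¹ := (c.central (A.inv_mem hy) hxD).symm
    rw [hcomm.mul_pow, hyeq, inv_pow, mul_inv_cancel]
    exact one_mem _
  -- every element of `D` is in `K x^r`
  have hcov : ∀ y ∈ D, ∃ r : Fin p, (x ^ (r : ℕ))⁻¹ * y ∈ KS_K c := by
    intro y hy
    have h1 : y ^ p ∈ zpowers (x ^ p) := by rw [hzp]; exact c.pow y hy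
    obtain ⟨i, hi⟩ := mem_zpowers_iff.1 h1
    have hxi : x ^ (-i) ∈ D := D.zpow_mem hxD _
    have h2 : y * x ^ (-i) ∈ KS_K c := by
      rw [hmem]
      refine ⟨D.mul_mem hy hxi, 1, A.one_mem, ?_⟩
      obtain ⟨z, hz, hzeq⟩ := c.mul_pow hy hxi
      rw [mul_one, hzeq, ← hi]
      have h3 : (x ^ p) ^ i * (x ^ (-i)) ^ p = 1 := by
        rw [← zpow_natCast, ← zpow_natCast, ← zpow_mul, ← zpow_mul, ← zpow_add]
        have : (p : ℤ) * i + -i * (p : ℤ) = 0 := by ring
        rw [this, zpow_zero]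
      rw [h3, one_mul]; exact hz
    have hppos : (0 : ℤ) < p := by exact_mod_cast hp.pos
    have hr0 : 0 ≤ i % p := Int.emod_nonneg _ hppos.ne'
    have hr1 : i % p < p := Int.emod_lt_of_pos _ hppos
    refine ⟨⟨(i % p).toNat, by omega⟩, ?_⟩
    have h4 : (x ^ ((i % p).toNat))⁻¹ = x ^ (-(i % p)) := by
      rw [zpow_neg, ← zpow_natCast, Int.toNat_of_nonneg hr0]
    simp only
    rw [h4]
    -- `y x^(-r) = (y x^(-i)) (x^p)^(i / p)`
    have h5 : y * x ^ (-(i % p)) = (y * x ^ (-i)) * (x ^ p) ^ (i / p) := by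
      rw [mul_assoc, ← zpow_natCast, ← zpow_mul, ← zpow_add]
      congr 2
      have := Int.emod_add_mul_ediv i p
      linarith
    have h6 : y * x ^ (-(i % p)) ∈ KS_K c := by
      rw [h5]
      exact (KS_K c).mul_mem h2 ((KS_K c).zpow_mem (hAK hxpA) _)
    have h7 := hKn.conj_mem _ h6 (x ^ (-(i % p)))
    have h8 : x ^ (-(i % p)) * (y * x ^ (-(i % p))) * (x ^ (-(i % p)))⁻¹ = x ^ (-(i % p)) * y := by
      group
    rwa [h8] at h7
  have hrel : (KS_K c).relIndex D * Nat.card (KS_K c) = Nat.card D := by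
    have h1 := index_mul_card ((KS_K c).subgroupOf D)
    rwa [Nat.card_congr (subgroupOfEquivOfLe hKD).toEquiv] at h1
  have hle : (KS_K c).relIndex D ≤ p := by
    have hsurj : Function.Surjective
        (fun r : Fin p => ((⟨x ^ (r : ℕ), D.pow_mem hxD _⟩ : D) : D ⧸ (KS_K c).subgroupOf D)) := by
      intro q
      induction q using QuotientGroup.induction_on with
      | H y =>
        obtain ⟨r, hr⟩ := hcov y.1 y.2
        refine ⟨r, ?_⟩
        rw [QuotientGroup.eq, mem_subgroupOf]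
        exact hr
    have := Nat.card_le_card_of_surjective _ hsurj
    rw [Nat.card_fin] at this
    exact this
  have hne1 : (KS_K c).relIndex D ≠ 1 := by
    intro h1
    rw [relIndex_eq_one] at h1
    exact hKeq (le_antisymm hKD h1)
  obtain ⟨k, hk⟩ := (hG.to_subgroup D).index ((KS_K c).subgroupOf D)
  have hk' : (KS_K c).relIndex D = p ^ k := hk
  have hrelp : (KS_K c).relIndex D = p := by
    rcases Nat.eq_zero_or_pos k with rfl | hkpos
    · rw [pow_zero] at hk'; exact absurd hk' hne1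
    · apply le_antisymm hle
      rw [hk']
      calc p = p ^ 1 := (pow_one p).symm
        _ ≤ p ^ k := Nat.pow_le_pow_right hp.pos hkpos
  rw [← hrel, hrelp]

end Cfsg.Agent.Lib.Helper65.Symp
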