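import Cfsg.Agent.Lib.Helper65.Symp.Defs
import Cfsg.Agent.Lib.Helper65.Symp.PW
import Cfsg.Agent.Lib.Helper65.Symp.CY
import Cfsg.Agent.Lib.Helper65.Symp.HYb
import Cfsg.Agent.Lib.Helper65.Symp.KS

/-!
# S3762 farm (helper65), piece [CL]   (file Cfsg/Agent/Lib/Helper65/Symp/CL.lean)

PROOF.  A = D ⊓ centralizer D is characteristic (D is) and commutative, so cyclic (hs).  Take K from KS.  If K = D we are done.
Otherwise |D| = p|K|; HYb gives t ∈ K \ A centralizing K.  C := K ⊓ centralizer K is characteristic and commutative, so cyclic; A ≤ C (A ≤ K, A central in D ≥ K), A ≠ C (t).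
CY.pow_of_proper (U := C, V := A): a generator g of A is g = s^p with s ∈ C ≤ K.  s ∈ K: (s a)^p ∈ Z0 for some a ∈ A; (s a)^p = s^p a^p = g a^p (s, a commute), a = g^k: g^(1+pk) ∈ Z0.
1 + pk is prime to |A|, so g ∈ zpowers (g^(1+pk)) ≤ Z0 p Z, so A ≤ Z0 p Z.
p odd: A = ⊥ contradicts Z ≤ A, card Z = p.   p = 2: A ≤ Z, so for every x ∈ D: (x*1)^2 = x^2 ∈ A ≤ Z = Z0: K = D, contradiction.
-/

set_option autoImplicit false

namespace Cfsg.Agent.Lib.Helper65.Symp

open Subgroup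
open scoped commutatorElement

variable {G : Type*} [Group G]

theorem CL_char_center {K : Subgroup G} (hK : K.Characteristic) :
    (K ⊓ centralizer (K : Set G)).Characteristic := by
  haveI := hK
  infer_instance

theorem CL_comm_center (K : Subgroup G) :
    IsMulCommutative ↥(K ⊓ centralizer (K : Set G)) := by
  refine ⟨⟨fun a b => Subtype.ext ?_⟩⟩
  exact (mem_centralizer_iff.1 b.2.2 a.1 a.2.1)

/-- in a `p`-group `g` is a power of `g ^ (1 + k p)` -/
theorem CL_mem_of_zpow_mem {p : ℕ} (hG : IsPGroup p G) (g : G) (k : ℤ) (H : Subgroup G)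
    (h : g ^ (1 + k * p) ∈ H) : g ∈ H := by
  obtain ⟨m, hm⟩ := hG g
  have hco : IsCoprime (1 + k * p : ℤ) ((p : ℤ) ^ m) := by
    apply IsCoprime.pow_right
    exact ⟨1, -k, by ring⟩
  obtain ⟨u, v, huv⟩ := hco
  have h1 : g = (g ^ (1 + k * p)) ^ u := by
    have h2 : g ^ ((p : ℤ) ^ m) = 1 := by
      have : ((p : ℤ) ^ m) = ((p ^ m : ℕ) : ℤ) := by push_cast; rfl
      rw [this, zpow_natCast, hm]
    calc g = g ^ (u * (1 + k * p) + v * (p : ℤ) ^ m) := by rw [huv, zpow_one]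
      _ = g ^ ((1 + k * p) * u) * g ^ ((p : ℤ) ^ m * v) := by
          rw [zpow_add, mul_comm u, mul_comm v]
      _ = (g ^ (1 + k * p)) ^ u := by rw [zpow_mul, zpow_mul, h2, one_zpow, mul_one]
  rw [h1]
  exact H.zpow_mem h u

/-- the CLAIM -/
theorem Cl2.claim [Finite G] {p : ℕ} [Fact p.Prime] (hG : IsPGroup p G) (hs : SympType G)
    {D A Z : Subgroup G} (c : Cl2 p D A Z) (hD : D.Characteristic) (hZ : Z.Characteristic) :
    ∀ x ∈ D, ∃ a ∈ A, (x * a) ^ p ∈ Z0 p Z := by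
  have hAc : IsCyclic A := by
    have h1 := hs _ (CL_char_center hD) (CL_comm_center D)
    rw [← c.hA] at h1
    exact h1
  obtain ⟨K, hKchar, hAK, hKD, hKmem, hK⟩ := c.exists_K hG hAc hD hZ
  rcases hK with rfl | hcard
  · intro x hx
    exact ((hKmem x).1 hx).2
  obtain ⟨t, htK, htA, htc⟩ := c.hyperplane hG K hAK hKD hcard
  have hCc : IsCyclic ↥(K ⊓ centralizer (K : Set G)) :=
    hs _ (CL_char_center hKchar) (CL_comm_center K)
  have hAC : A ≤ K ⊓ centralizer (K : Set G) := by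
    intro a ha
    refine ⟨hAK ha, ?_⟩
    show a ∈ centralizer (K : Set G)
    rw [mem_centralizer_iff]
    intro k hk
    exact (c.central ha (hKD hk)).symm
  have hne : A ≠ K ⊓ centralizer (K : Set G) := by
    intro h
    apply htA
    rw [h]
    refine ⟨htK, ?_⟩
    show t ∈ centralizer (K : Set G)
    rw [mem_centralizer_iff]
    intro k hk
    exact (htc k hk).symm
  obtain ⟨g, hg⟩ := hAc.exists_generator
  obtain ⟨s, hsC, hgs⟩ := pow_of_proper hG _ A hCc hAC hne g.1 g.2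
  obtain ⟨hsD, a, ha, hsa⟩ := (hKmem s).1 hsC.1
  obtain ⟨k, hk⟩ := Subgroup.mem_zpowers_iff.1 (hg ⟨a, ha⟩)
  have hk' : (g : G) ^ k = a := by
    have := congrArg Subtype.val hk
    simpa using this
  have hcomm : Commute s a := (c.central ha hsD).symm
  have h1 : (s * a) ^ p = (g : G) ^ (1 + k * p) := by
    rw [hcomm.mul_pow, ← hgs, ← hk', zpow_add, zpow_one, zpow_mul, zpow_natCast]
  rw [h1] at hsa
  have hgZ : (g : G) ∈ Z0 p Z := CL_mem_of_zpow_mem hG _ k _ hsa
  have hAZ : A ≤ Z0 p Z := by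
    intro b hb
    obtain ⟨j, hj⟩ := Subgroup.mem_zpowers_iff.1 (hg ⟨b, hb⟩)
    have hj' : (g : G) ^ j = b := by
      have := congrArg Subtype.val hj
      simpa using this
    rw [← hj']
    exact (Z0 p Z).zpow_mem hgZ j
  intro x hx
  exact ⟨1, A.one_mem, by rw [mul_one]; exact hAZ (c.pow x hx)⟩

end Cfsg.Agent.Lib.Helper65.Symp
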