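import Cfsg.Agent.Lib.Helper65.Symp.Defs
import Cfsg.Agent.Lib.Helper73.Taussky

/-!
# S3762 farm (helper65), piece [OM]   (by helper73)
-/

set_option autoImplicit false

namespace Cfsg.Agent.Lib.Helper65.Symp

open Subgroup
open scoped commutatorElement

variable {G : Type*} [Group G]

theorem exists_omega [Finite G] {p : ℕ} [Fact p.Prime] (hG : IsPGroup p G) (U : Subgroup G)
    (hUchar : U.Characteristic) (hUc : IsCyclic U) (hne : U ≠ ⊥) :
    ∃ Z : Subgroup G, Z.Characteristic ∧ Nat.card Z = p ∧ (∀ x, x ∈ Z ↔ x ∈ U ∧ x ^ p = 1) ∧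
      ∀ z ∈ Z, ∀ g : G, g * z = z * g := by
  have hp : p.Prime := Fact.out
  have hUcomm : ∀ x ∈ U, ∀ y ∈ U, x * y = y * x := by
    intro x hx y hy
    have := (IsCyclic.isMulCommutative (α := U)).is_comm.comm ⟨x, hx⟩ ⟨y, hy⟩
    exact congrArg Subtype.val this
  let Z : Subgroup G :=
    { carrier := {x | x ∈ U ∧ x ^ p = 1}
      mul_mem' := by
        rintro a b ⟨ha, ha1⟩ ⟨hb, hb1⟩
        refine ⟨U.mul_mem ha hb, ?_⟩
        rw [(show Commute a b from hUcomm a ha b hb).mul_pow, ha1, hb1, one_mul]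
      one_mem' := ⟨U.one_mem, one_pow _⟩
      inv_mem' := by
        rintro a ⟨ha, ha1⟩
        exact ⟨U.inv_mem ha, by rw [inv_pow, ha1, inv_one]⟩ }
  have hZmem : ∀ x, x ∈ Z ↔ x ∈ U ∧ x ^ p = 1 := fun x => Iff.rfl
  have hZU : Z ≤ U := fun x hx => hx.1
  have hZchar : Z.Characteristic := by
    rw [Subgroup.characteristic_iff_map_le]
    intro ϕ x hx
    obtain ⟨y, hy, rfl⟩ := Subgroup.mem_map.mp hx
    refine ⟨?_, ?_⟩
    · have := Subgroup.characteristic_iff_map_le.mp hUchar ϕ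
      exact this (Subgroup.mem_map_of_mem _ hy.1)
    · rw [← map_pow, hy.2, map_one]
  have : U.Normal := inferInstance
  obtain ⟨z, hzU, hzc, hzo⟩ := Cfsg.Agent.Lib.Helper73.exists_central_orderOf_eq_prime hG U hne
  have hzZ : z ∈ Z := ⟨hzU, by rw [← hzo]; exact pow_orderOf_eq_one z⟩
  have : IsCyclic Z := Subgroup.isCyclic_of_le hZU
  obtain ⟨g, hg⟩ := IsCyclic.exists_generator (α := Z)
  have hcard : Nat.card Z = orderOf g := (orderOf_eq_card_of_forall_mem_zpowers hg).symm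
  have hgp : g ^ p = 1 := Subtype.ext g.2.2
  have hdvd : orderOf g ∣ p := orderOf_dvd_of_pow_eq_one hgp
  have hcardp : Nat.card Z = p := by
    rcases (Nat.dvd_prime hp).mp hdvd with h | h
    · exfalso
      rw [h] at hcard
      have h1 : Z = ⊥ := Subgroup.card_eq_one.mp hcard
      have hz1 : z = 1 := by rw [h1] at hzZ; exact Subgroup.mem_bot.mp hzZ
      rw [hz1, orderOf_one] at hzo
      exact hp.one_lt.ne hzo
    · rw [hcard, h]
  refine ⟨Z, hZchar, hcardp, hZmem, ?_⟩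
  have hzz : zpowers z = Z :=
    Subgroup.eq_of_le_of_card_ge (by rw [zpowers_le]; exact hzZ)
      (by rw [Nat.card_zpowers, hzo, hcardp])
  intro y hy g
  rw [← hzz] at hy
  obtain ⟨k, rfl⟩ := Subgroup.mem_zpowers_iff.mp hy
  have h2 : z ^ k ∈ center G := (center G).zpow_mem hzc k
  exact Subgroup.mem_center_iff.mp h2 g

end Cfsg.Agent.Lib.Helper65.Symp
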