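import Cfsg.Agent.Lib.Helper65.Symp.Defs
import Cfsg.Agent.Lib.Helper65.Symp.OM
import Cfsg.Agent.S0093
import Cfsg.Agent.Lib.Helper2.PGroupFrattini

/-!
# S3762 farm (helper65), piece [CR]   (file Cfsg/Agent/Lib/Helper65/Symp/CR.lean)

PROOF.  Cfsg.Agent.S0093.result hG gives H characteristic, (frattini H).map H.subtype ≤ centralizer H, ⁅H, ⊤⁆ ≤ H ⊓ centralizer H, centralizer H ≤ H.
U := centralizer H: characteristic (centralizer of a characteristic subgroup; Mathlib instance or by hand), commutative (U ≤ H, U centralizes H), so cyclic by hs.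
U ≠ ⊥: if H = ⊥ then U = ⊤ ≠ ⊥; otherwise U = H ⊓ centralizer H is (the image of) the centre of the nontrivial p-group ↥H (IsPGroup.center_nontrivial).
Z from OM.exists_omega.  Cl2 p H U Z: hA: U = H ⊓ centralizer H as U ≤ H.  pow: x^p ∈ frattini ↥H (Helper2.pow_p_mem_frattini) so x^p ∈ centralizer H.
comm: u := ⁅x,y⁆ ∈ ⁅H,⊤⁆ ≤ U; u^p = ⁅x^p, y⁆ = 1 since u is central in H (⁅x^(n+1),y⁆ = x ⁅x^n,y⁆ x⁻¹ ⁅x,y⁆) and x^p ∈ U is central; so u ∈ Z.
-/

set_option autoImplicit false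

namespace Cfsg.Agent.Lib.Helper65.Symp

open Subgroup
open scoped commutatorElement

variable {G : Type*} [Group G]

theorem exists_crit [Finite G] [Nontrivial G] {p : ℕ} [Fact p.Prime] (hG : IsPGroup p G)
    (hs : SympType G) :
    ∃ H U Z : Subgroup G, H.Characteristic ∧ U.Characteristic ∧ Z.Characteristic ∧ IsCyclic U ∧
      U = centralizer (H : Set G) ∧ Cl2 p H U Z ∧ (∀ x ∈ H, ∀ g : G, ⁅x, g⁆ ∈ U) ∧
      (∀ x, x ∈ Z ↔ x ∈ U ∧ x ^ p = 1) ∧ ∀ z ∈ Z, ∀ g : G, g * z = z * g := by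
  obtain ⟨H, hHc, hfr, hcomm, hcen⟩ := Cfsg.Agent.S0093.result hG
  haveI := hHc
  have hUchar : (centralizer (H : Set G)).Characteristic := inferInstance
  have hUH : centralizer (H : Set G) = H ⊓ centralizer (H : Set G) := (inf_eq_right.mpr hcen).symm
  have hUcomm : IsMulCommutative ↥(centralizer (H : Set G)) :=
    ⟨⟨fun a b => Subtype.ext (mem_centralizer_iff.1 b.2 a.1 (hcen a.2))⟩⟩
  have hUcyc := hs _ hUchar hUcomm
  have hne : centralizer (H : Set G) ≠ ⊥ := by
    intro h0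
    by_cases hH : H = ⊥
    · rw [hH] at h0
      have h1 : (centralizer ((⊥ : Subgroup G) : Set G)) = ⊤ := by
        rw [eq_top_iff]
        intro g _
        rw [mem_centralizer_iff]
        intro h hh
        have hh' : h = 1 := hh
        rw [hh', one_mul, mul_one]
      rw [h1] at h0
      exact top_ne_bot h0
    · haveI : Nontrivial H := (nontrivial_iff_ne_bot H).mpr hH
      haveI hcn : Nontrivial (center ↥H) := (hG.to_subgroup H).center_nontrivial
      obtain ⟨z, hz⟩ := exists_ne (1 : center ↥H)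
      have h1 : ((z : H) : G) ∈ centralizer (H : Set G) := by
        rw [mem_centralizer_iff]
        intro h hh
        have h2 := mem_center_iff.mp z.2 ⟨h, hh⟩
        exact congrArg Subtype.val h2
      rw [h0, mem_bot] at h1
      apply hz
      apply Subtype.ext
      apply Subtype.ext
      exact h1
  obtain ⟨Z, hZchar, hZcard, hZ, hZcen⟩ := exists_omega hG _ hUchar hUcyc hne
  have hHG : ∀ x ∈ H, ∀ g : G, ⁅x, g⁆ ∈ centralizer (H : Set G) :=
    fun x hx g => (hcomm (commutator_mem_commutator hx (mem_top g))).2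
  have hpow : ∀ x ∈ H, x ^ p ∈ centralizer (H : Set G) := by
    intro x hx
    apply hfr
    exact ⟨⟨x, hx⟩ ^ p, Cfsg.Agent.Lib.Helper2.pow_p_mem_frattini (hG.to_subgroup H) ⟨x, hx⟩, rfl⟩
  refine ⟨H, centralizer (H : Set G), Z, hHc, hUchar, hZchar, hUcyc, rfl,
    ⟨hUH, fun z hz => ((hZ z).mp hz).1, hZcard, ?_, hpow⟩, hHG, hZ, hZcen⟩
  intro x hx y hy
  rw [hZ]
  refine ⟨hHG x hx y, ?_⟩
  have key : ∀ n : ℕ, ⁅x ^ n, y⁆ = ⁅x, y⁆ ^ n := by
    intro n
    induction n with
    | zero => simp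
    | succ n ih =>
      have h1 : ⁅x ^ (n + 1), y⁆ = x * ⁅x ^ n, y⁆ * x⁻¹ * ⁅x, y⁆ := by
        simp only [commutatorElement_def, pow_succ']
        group
      have h2 : ⁅x, y⁆ ^ n * x = x * ⁅x, y⁆ ^ n :=
        (mem_centralizer_iff.mp (pow_mem (hHG x hx y) n) x hx).symm
      rw [h1, ih, ← h2, mul_inv_cancel_right, pow_succ]
  rw [← key, commutatorElement_eq_one_iff_mul_comm]
  exact (mem_centralizer_iff.mp (hpow x hx) y hy).symm

end Cfsg.Agent.Lib.Helper65.Symp
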