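import Cfsg.Agent.Lib.Helper65.Symp.Defs
import Cfsg.Agent.Lib.Helper2.PGroupFrattini

/-!
# S3762 farm (helper65), piece [ES]
-/

set_option autoImplicit false

namespace Cfsg.Agent.Lib.Helper65.Symp

open Subgroup
open scoped commutatorElement

variable {G : Type*} [Group G]

/-- criterion for extraspecial subgroups -/
theorem extraspecial_of [Finite G] {p : ℕ} [Fact p.Prime] (hG : IsPGroup p G) (E Z : Subgroup G)
    (hZE : Z ≤ E) (hcard : Nat.card Z = p) (hZc : ∀ z ∈ Z, ∀ y ∈ E, z * y = y * z)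
    (hcen : ∀ x ∈ E, (∀ y ∈ E, x * y = y * x) → x ∈ Z) (hpow : ∀ x ∈ E, x ^ p ∈ Z)
    (hcomm : ∀ x ∈ E, ∀ y ∈ E, ⁅x, y⁆ ∈ Z) (hna : ∃ x ∈ E, ∃ y ∈ E, x * y ≠ y * x) :
    Cfsg.IsExtraspecial p ↥E := by
  have hp : p.Prime := Fact.out
  have hE : IsPGroup p E := hG.to_subgroup E
  have hc : center ↥E = Z.subgroupOf E := by
    ext ⟨x, hx⟩
    rw [mem_center_iff, mem_subgroupOf]
    constructor
    · intro h
      apply hcen x hx
      intro y hy
      exact (congrArg Subtype.val (h ⟨y, hy⟩)).symm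
    · intro h ⟨y, hy⟩
      exact Subtype.ext (hZc x h y hy).symm
  have hcc : Nat.card (center ↥E) = p := by
    rw [hc, Nat.card_congr (Subgroup.subgroupOfEquivOfLe hZE).toEquiv, hcard]
  have hle : commutator ↥E ≤ center ↥E := by
    rw [commutator_def, Subgroup.commutator_le, hc]
    rintro ⟨x, hx⟩ - ⟨y, hy⟩ -
    rw [mem_subgroupOf]
    exact hcomm x hx y hy
  have hne : commutator ↥E ≠ ⊥ := by
    intro hbot
    obtain ⟨x, hx, y, hy, hxy⟩ := hna
    have h1 : ⁅(⟨x, hx⟩ : E), ⟨y, hy⟩⁆ ∈ commutator ↥E := by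
      rw [commutator_def]
      exact Subgroup.commutator_mem_commutator (mem_top _) (mem_top _)
    rw [hbot, mem_bot, commutatorElement_eq_one_iff_mul_comm] at h1
    exact hxy (congrArg Subtype.val h1)
  have heq : commutator ↥E = center ↥E := by
    have hd : Nat.card (commutator ↥E) ∣ p := by
      rw [← hcc]; exact Subgroup.card_dvd_of_le hle
    rcases (Nat.dvd_prime hp).1 hd with h1 | h1
    · exact absurd ((Subgroup.card_eq_one).1 h1) hne
    · exact Subgroup.eq_of_le_of_card_ge hle (by rw [h1, hcc])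
  refine ⟨⟨hE, le_antisymm ?_ ?_, heq⟩, hcc⟩
  · apply Cfsg.Agent.Lib.Helper2.frattini_le_of_elementary_quotient (p := p) (center ↥E) hle
    rintro ⟨x, hx⟩
    rw [hc, mem_subgroupOf]
    exact hpow x hx
  · rw [← heq]
    exact Cfsg.Agent.Lib.Helper2.commutator_le_frattini hE

end Cfsg.Agent.Lib.Helper65.Symp
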