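import Cfsg.Agent.Lib.Helper65.Symp.Defs
import Cfsg.Agent.Lib.Helper65.Symp.PW

/-!
# S3762 farm (helper65), piece [P6]   (file Cfsg/Agent/Lib/Helper65/Symp/P6.lean)

PROOF.  u := ⁅g, e⁆ = (⁅e, g⁆)⁻¹ ∈ U, g e g⁻¹ = u e.  u is central in H ∋ e: (u e)^p = u^p e^p.  (g e g⁻¹)^p = g e^p g⁻¹ = e^p as e^p ∈ Z is central in G.
So u^p = 1 and u ∈ Z by hZ.
-/

set_option autoImplicit false

namespace Cfsg.Agent.Lib.Helper65.Symp

open Subgroup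
open scoped commutatorElement

variable {G : Type*} [Group G]

theorem comm_mem_Z {p : ℕ} {H U Z E : Subgroup G} (c : Cl2 p H U Z)
    (hHG : ∀ x ∈ H, ∀ g : G, ⁅x, g⁆ ∈ U) (hZ : ∀ x, x ∈ Z ↔ x ∈ U ∧ x ^ p = 1)
    (hZc : ∀ z ∈ Z, ∀ g : G, g * z = z * g) (hEH : E ≤ H) (hEp : ∀ e ∈ E, e ^ p ∈ Z) :
    ∀ g : G, ∀ e ∈ E, ⁅g, e⁆ ∈ Z := by
  intro g e he
  have heH := hEH he
  have hu : ⁅g, e⁆ ∈ U := by
    have h1 := hHG e heH g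
    have h2 : ⁅g, e⁆ = (⁅e, g⁆)⁻¹ := (commutatorElement_inv e g).symm
    rw [h2]
    exact U.inv_mem h1
  rw [hZ]
  refine ⟨hu, ?_⟩
  have h1 : g * e * g⁻¹ = ⁅g, e⁆ * e := by
    rw [commutatorElement_def]; group
  have hc : Commute ⁅g, e⁆ e := c.central hu heH
  have h2 : (g * e * g⁻¹) ^ p = e ^ p := by
    rw [conj_pow]
    have := hZc (e ^ p) (hEp e he) g
    rw [this, mul_inv_cancel_right]
  rw [h1, hc.mul_pow] at h2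
  simpa using h2

end Cfsg.Agent.Lib.Helper65.Symp
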