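import Cfsg.Agent.Lib.Helper65.Symp.Defs
import Cfsg.Agent.Lib.Helper65.Symp.PW
import Cfsg.Agent.Lib.Helper65.Symp.ES
import Cfsg.Agent.Lib.Helper65.Symp.P6
import Cfsg.Agent.S0110

/-!
# S3762 farm (helper65), piece [CX]   (file Cfsg/Agent/Lib/Helper65/Symp/CX.lean)
-/

set_option autoImplicit false

namespace Cfsg.Agent.Lib.Helper65.Symp

open Subgroup
open scoped commutatorElement

variable {G : Type*} [Group G]

theorem exists_ctx [Finite G] {p : ℕ} [Fact p.Prime] (hG : IsPGroup p G) (hs : SympType G)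
    {H U Z E : Subgroup G} (hUchar : U.Characteristic) (hZchar : Z.Characteristic)
    (hUc : IsCyclic U) (hU : U = centralizer (H : Set G)) (c : Cl2 p H U Z)
    (hHG : ∀ x ∈ H, ∀ g : G, ⁅x, g⁆ ∈ U) (hZ : ∀ x, x ∈ Z ↔ x ∈ U ∧ x ^ p = 1)
    (hZc : ∀ z ∈ Z, ∀ g : G, g * z = z * g) (hZE : Z ≤ E) (hEH : E ≤ H) (hEU : E ⊓ U = Z)
    (hdec : ∀ x ∈ H, ∃ e ∈ E, ∃ a ∈ U, x = e * a) (hEp : ∀ e ∈ E, e ^ p ∈ Z0 p Z) :
    Ctx p U Z E (centralizer (E : Set G)) ∧ (E = Z ∨ Cfsg.IsExtraspecial p ↥E) := by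
  have hUH : ∀ u ∈ U, ∀ x ∈ H, x * u = u * x := by
    intro u hu x hx
    rw [hU] at hu
    exact mem_centralizer_iff.1 hu x hx
  have memU : ∀ r : G, (∀ e ∈ E, e * r = r * e) → (∀ u ∈ U, r * u = u * r) → r ∈ U := by
    intro r h1 h2
    rw [hU, mem_centralizer_iff]
    intro x hx
    obtain ⟨e, he, a, ha, rfl⟩ := hdec x hx
    rw [mul_assoc, ← h2 a ha, ← mul_assoc, h1 e he, mul_assoc]
  have EU : ∀ e ∈ E, ∀ u ∈ U, e * u = u * e := fun e he u hu => hUH u hu e (hEH he)
  have Ecen : ∀ e ∈ E, (∀ y ∈ E, e * y = y * e) → e ∈ Z := by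
    intro e he h1
    rw [← hEU]
    exact ⟨he, memU e (fun y hy => (h1 y hy).symm) (EU e he)⟩
  have Epow : ∀ e ∈ E, e ^ p ∈ Z := fun e he => Z0_le p Z (hEp e he)
  have Ecomm : ∀ e ∈ E, ∀ y ∈ E, ⁅e, y⁆ ∈ Z := fun e he y hy => c.comm e (hEH he) y (hEH hy)
  have hmain : (∀ g : G, ∃ e ∈ E, ∃ r ∈ centralizer (E : Set G), g = e * r) ∧
      (E = Z ∨ Cfsg.IsExtraspecial p ↥E) := by
    by_cases hcommE : ∀ x ∈ E, ∀ y ∈ E, x * y = y * x
    · have hEZ : E = Z := le_antisymm (fun e he => Ecen e he (hcommE e he)) hZE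
      refine ⟨fun g => ⟨1, E.one_mem, g, ?_, by simp⟩, Or.inl hEZ⟩
      rw [mem_centralizer_iff]
      intro e he
      exact (hZc e (hEZ ▸ he) g).symm
    · push Not at hcommE
      have hES : Cfsg.IsExtraspecial p ↥E :=
        extraspecial_of hG E Z hZE c.cardZ (fun z hz y _ => (hZc z hz y).symm) Ecen Epow Ecomm
          hcommE
      have hcm := comm_mem_Z c hHG hZ hZc hEH Epow
      have hZcent : Z ≤ centralizer (E : Set G) := by
        intro z hz
        rw [mem_centralizer_iff]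
        intro e _
        exact hZc z hz e
      have h1 : ⁅(⊤ : Subgroup G), E⁆ ≤ E ⊓ centralizer (E : Set G) := by
        rw [commutator_le]
        intro g _ e he
        exact ⟨hZE (hcm g e he), hZcent (hcm g e he)⟩
      have h2 := Cfsg.Agent.S0110.result hG E hES h1
      have hEn : E.Normal := by
        constructor
        intro e he g
        have h3 : g * e * g⁻¹ = ⁅g, e⁆ * e := by rw [commutatorElement_def]; group
        rw [h3]
        exact E.mul_mem (hZE (hcm g e he)) he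
      refine ⟨fun g => ?_, Or.inr hES⟩
      have h4 : g ∈ ((E ⊔ centralizer (E : Set G) : Subgroup G) : Set G) := by
        rw [h2]; exact mem_top g
      rw [normal_mul] at h4
      obtain ⟨e, he, r, hr, rfl⟩ := Set.mem_mul.1 h4
      exact ⟨e, he, r, hr, rfl⟩
  refine ⟨?_, hmain.2⟩
  exact
    { pG := hG
      symp := hs
      Uchar := hUchar
      Zchar := hZchar
      Ucyc := hUc
      cardZ := c.cardZ
      hZ := hZ
      Zcen := hZc
      ZE := hZE
      EU := EU
      Ecen := Ecen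
      Epow := Epow
      Ecomm := Ecomm
      ERc := fun e he r hr => mem_centralizer_iff.1 hr e he
      ER := hmain.1
      UR := fun u hu => mem_centralizer_iff.2 (fun e he => EU e he u hu)
      RU := fun r hr h2 => memU r (fun e he => mem_centralizer_iff.1 hr e he) h2 }

end Cfsg.Agent.Lib.Helper65.Symp
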