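import Cfsg.Agent.Lib.Helper65.Symp.Defs

/-!
# S3762 farm (helper65), piece [DC]   (file Cfsg/Agent/Lib/Helper65/Symp/DC.lean)

PROOF.  Subgroup.characteristic_iff_map_le (or comap_le): φ : G ≃* G, g ∈ Dp p U; for x ∈ U, x = φ x' with x' = φ.symm x ∈ U (U characteristic);
x^p * φ g = φ (x'^p * g) = φ (g * x'^p) = φ g * x^p.
-/

set_option autoImplicit false

namespace Cfsg.Agent.Lib.Helper65.Symp

open Subgroup
open scoped commutatorElement

variable {G : Type*} [Group G]

theorem Dp_char (p : ℕ) {U : Subgroup G} (hU : U.Characteristic) : (Dp p U).Characteristic := by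
  rw [characteristic_iff_map_le]
  intro φ
  rintro _ ⟨g, hg, rfl⟩
  show φ g ∈ Dp p U
  replace hg : g ∈ Dp p U := hg
  rw [mem_Dp] at hg ⊢
  intro x hx
  have hx' : φ.symm x ∈ U := by
    have h1 : U.map φ.symm.toMonoidHom = U := characteristic_iff_map_eq.mp hU φ.symm
    rw [← h1]
    exact ⟨x, hx, rfl⟩
  have h2 := congrArg φ (hg _ hx')
  simpa using h2

end Cfsg.Agent.Lib.Helper65.Symp
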