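import Mathlib
import Cfsg.Prelude.Def_Transfer
import Cfsg.Prelude.Def_CaseTheorems

/-!
# S3762 (P. Hall: `p`-groups of symplectic type are `E * R`): shared vocabulary
Everything is in ambient form: `G` a finite `p`-group, all objects are subgroups of `G`.
`⁅a, b⁆ = a * b * a⁻¹ * b⁻¹`.
-/

set_option autoImplicit false

namespace Cfsg.Agent.Lib.Helper65.Symp

open Subgroup
open scoped commutatorElement

variable {G : Type*} [Group G]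

/-- `Z0 = ⊥` for odd `p`, `Z0 = Z` for `p = 2` -/
def Z0 (p : ℕ) (Z : Subgroup G) : Subgroup G := if p = 2 then Z else ⊥

theorem Z0_le (p : ℕ) (Z : Subgroup G) : Z0 p Z ≤ Z := by
  unfold Z0
  split_ifs
  · exact le_rfl
  · exact bot_le

theorem Z0_two (Z : Subgroup G) : Z0 2 Z = Z := if_pos rfl

theorem Z0_odd {p : ℕ} (hp : p ≠ 2) (Z : Subgroup G) : Z0 p Z = ⊥ := if_neg hp

/-- symplectic type: every characteristic abelian subgroup is cyclic -/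
def SympType (G : Type*) [Group G] : Prop :=
  ∀ A : Subgroup G, A.Characteristic → IsMulCommutative A → IsCyclic A

/-- the centralizer of the `p`-th powers of the elements of `U` -/
def Dp (p : ℕ) (U : Subgroup G) : Subgroup G := centralizer {y | ∃ x ∈ U, y = x ^ p}

theorem mem_Dp {p : ℕ} {U : Subgroup G} {g : G} :
    g ∈ Dp p U ↔ ∀ x ∈ U, x ^ p * g = g * x ^ p := by
  unfold Dp
  rw [mem_centralizer_iff]
  constructor
  · intro h x hx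
    exact h _ ⟨x, hx, rfl⟩
  · rintro h _ ⟨x, hx, rfl⟩
    exact h x hx

/-- `D` has centre `A`, commutators in `Z ≤ A` (of order `p`) and `p`-th powers in `A` -/
structure Cl2 (p : ℕ) (D A Z : Subgroup G) : Prop where
  hA : A = D ⊓ centralizer (D : Set G)
  ZA : Z ≤ A
  cardZ : Nat.card Z = p
  comm : ∀ x ∈ D, ∀ y ∈ D, ⁅x, y⁆ ∈ Z
  pow : ∀ x ∈ D, x ^ p ∈ A

/-- the situation after the extraspecial part `E` has been split off; `R = C_G(E)` -/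
structure Ctx (p : ℕ) (U Z E R : Subgroup G) : Prop where
  pG : IsPGroup p G
  symp : SympType G
  Uchar : U.Characteristic
  Zchar : Z.Characteristic
  Ucyc : IsCyclic U
  cardZ : Nat.card Z = p
  hZ : ∀ x, x ∈ Z ↔ x ∈ U ∧ x ^ p = 1
  Zcen : ∀ z ∈ Z, ∀ g : G, g * z = z * g
  ZE : Z ≤ E
  EU : ∀ e ∈ E, ∀ u ∈ U, e * u = u * e
  Ecen : ∀ e ∈ E, (∀ y ∈ E, e * y = y * e) → e ∈ Z
  Epow : ∀ e ∈ E, e ^ p ∈ Z
  Ecomm : ∀ e ∈ E, ∀ y ∈ E, ⁅e, y⁆ ∈ Z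
  ERc : ∀ e ∈ E, ∀ r ∈ R, e * r = r * e
  ER : ∀ g : G, ∃ e ∈ E, ∃ r ∈ R, g = e * r
  UR : U ≤ R
  RU : ∀ r ∈ R, (∀ u ∈ U, r * u = u * r) → r ∈ U

/-- `Ctx` together with an element `w ∈ R \ U` with `C_R(U^p) = U⟨w⟩`, `w ^ p ∈ U` -/
structure WD (p : ℕ) (U Z E R : Subgroup G) (w : G) : Prop extends Ctx p U Z E R where
  wR : w ∈ R
  wU : w ∉ U
  wD : w ∈ Dp p U
  gen : ∀ m ∈ R, m ∈ Dp p U → ∃ x ∈ U, ∃ j : ℕ, m = x * w ^ j
  wp : w ^ p ∈ U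

/-- the conclusion of S3762 -/
def Concl (p : ℕ) (G : Type*) [Group G] : Prop :=
  ∃ E R : Subgroup G, (∀ e ∈ E, ∀ r ∈ R, e * r = r * e) ∧ E ⊔ R = ⊤ ∧
    (E = ⊥ ∨ Cfsg.IsExtraspecial p ↥E) ∧
    (IsCyclic R ∨ (p = 2 ∧ 16 ≤ Nat.card R ∧ ((∃ m : ℕ, Nonempty (↥R ≃* DihedralGroup m)) ∨
      (∃ m : ℕ, Nonempty (↥R ≃* QuaternionGroup m)) ∨ Cfsg.IsQuasiDihedral ↥R)))

end Cfsg.Agent.Lib.Helper65.Symp
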