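import Cfsg.Agent.Lib.Helper65.Symp.Defs
import Cfsg.Agent.Lib.Helper65.Symp.CY

/-!
# S3762 farm (helper65), piece [WA]   (file Cfsg/Agent/Lib/Helper65/Symp/WA.lean)

PROOF.  U is commutative (cyclic), normal (characteristic).
U_ne_Z: if U = Z then U is central in G (Zcen), so w ∈ U by RU: contradiction with wU.
Z_pow: Z ≤ U (hZ), Z ≠ U: CY.pow_of_proper.
cent_w: V := U ⊓ centralizer {w} is a subgroup of U, ≠ U (else w centralizes U, w ∈ U by RU): CY.pow_of_proper.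
comm_w: x ↦ ⁅x, w⁆ = x * (w x⁻¹ w⁻¹) ∈ U (U normal) is multiplicative on the commutative group U, so ⁅x,w⁆^p = ⁅x^p, w⁆ = 1 (wD); hZ.
-/

set_option autoImplicit false

namespace Cfsg.Agent.Lib.Helper65.Symp

open Subgroup
open scoped commutatorElement

variable {G : Type*} [Group G]

theorem WD.U_comm {p : ℕ} {U Z E R : Subgroup G} {w : G} (d : WD p U Z E R w) :
    ∀ x ∈ U, ∀ y ∈ U, x * y = y * x := by
  intro x hx y hy
  obtain ⟨g, hg⟩ := d.Ucyc.exists_generator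
  obtain ⟨a, ha⟩ := hg ⟨x, hx⟩
  obtain ⟨b, hb⟩ := hg ⟨y, hy⟩
  have h : (⟨x, hx⟩ : U) * ⟨y, hy⟩ = ⟨y, hy⟩ * ⟨x, hx⟩ := by
    rw [← ha, ← hb]
    change g ^ a * g ^ b = g ^ b * g ^ a
    rw [← zpow_add, ← zpow_add, add_comm]
  exact congrArg Subtype.val h

theorem WD.U_le_Dp {p : ℕ} {U Z E R : Subgroup G} {w : G} (d : WD p U Z E R w) : U ≤ Dp p U := by
  intro x hx
  rw [mem_Dp]
  intro y hy
  exact d.U_comm _ (U.pow_mem hy p) _ hx

theorem WD.Z_pow [Finite G] {p : ℕ} [Fact p.Prime] {U Z E R : Subgroup G} {w : G}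
    (d : WD p U Z E R w) : ∀ z ∈ Z, ∃ x ∈ U, z = x ^ p := by
  apply pow_of_proper d.pG U Z d.Ucyc (fun z hz => ((d.hZ z).1 hz).1)
  intro h
  apply d.wU
  apply d.RU w d.wR
  intro u hu
  exact d.Zcen u (h ▸ hu) w

theorem WD.cent_w [Finite G] {p : ℕ} [Fact p.Prime] {U Z E R : Subgroup G} {w : G}
    (d : WD p U Z E R w) : ∀ x ∈ U, w * x = x * w → ∃ y ∈ U, x = y ^ p := by
  intro x hx hwx
  have hne : U ⊓ centralizer {w} ≠ U := by
    intro h
    apply d.wU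
    apply d.RU w d.wR
    intro u hu
    have hu' : u ∈ U ⊓ centralizer {w} := by rw [h]; exact hu
    exact (mem_centralizer_iff.1 hu'.2) w rfl
  apply pow_of_proper d.pG U _ d.Ucyc inf_le_left hne x
  refine Subgroup.mem_inf.2 ⟨hx, ?_⟩
  rw [mem_centralizer_iff]
  rintro _ rfl
  exact hwx

theorem WD.comm_w {p : ℕ} {U Z E R : Subgroup G} {w : G} (d : WD p U Z E R w) :
    ∀ x ∈ U, ⁅x, w⁆ ∈ Z := by
  intro x hx
  have hn : U.Normal := by
    have := d.Uchar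
    exact Subgroup.normal_of_characteristic U
  have h1 : w * x⁻¹ * w⁻¹ ∈ U := hn.conj_mem _ (U.inv_mem hx) w
  have he : ⁅x, w⁆ = x * (w * x⁻¹ * w⁻¹) := by
    rw [commutatorElement_def]; group
  rw [d.hZ, he]
  refine ⟨U.mul_mem hx h1, ?_⟩
  have hc : Commute x (w * x⁻¹ * w⁻¹) := d.U_comm _ hx _ h1
  rw [hc.mul_pow, conj_pow, inv_pow]
  have h2 := (mem_Dp.1 d.wD) x hx
  have h3 : w * (x ^ p)⁻¹ * w⁻¹ = (x ^ p)⁻¹ := by
    rw [mul_inv_eq_iff_eq_mul, ← mul_left_cancel_iff (a := x ^ p), ← mul_assoc, h2]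
    group
  rw [h3, mul_inv_cancel]

end Cfsg.Agent.Lib.Helper65.Symp
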