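import Cfsg.Agent.Lib.Helper65.Symp.Defs
import Cfsg.Agent.Lib.Helper65.Symp.WA

/-!
# S3762 farm (helper65), piece [WB]   (file Cfsg/Agent/Lib/Helper65/Symp/WB.lean)

PROOF.  dec: g = e r (ER); e ∈ Dp p U (EU: e commutes with U), so r = e⁻¹ g ∈ R ⊓ Dp p U; gen.
center: g = e r as above, g central in Dp p U.  E ≤ Dp p U; for y ∈ E: g y = y g and r y = y r give e y = y e; Ecen: e ∈ Z ≤ U ≤ R.  So g ∈ R.
U ≤ Dp p U so g commutes with U: g ∈ U (RU).  w ∈ Dp p U so g commutes with w: WA.cent_w.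
-/

set_option autoImplicit false

namespace Cfsg.Agent.Lib.Helper65.Symp

open Subgroup
open scoped commutatorElement

variable {G : Type*} [Group G]

theorem WD.WB_E_le_Dp {p : ℕ} {U Z E R : Subgroup G} {w : G} (d : WD p U Z E R w) :
    E ≤ Dp p U := by
  intro e he
  rw [mem_Dp]
  intro x hx
  exact (d.EU e he _ (U.pow_mem hx p)).symm

theorem WD.dec {p : ℕ} {U Z E R : Subgroup G} {w : G} (d : WD p U Z E R w) :
    ∀ g ∈ Dp p U, ∃ e ∈ E, ∃ x ∈ U, ∃ j : ℕ, g = e * (x * w ^ j) := by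
  intro g hg
  obtain ⟨e, he, r, hr, rfl⟩ := d.ER g
  have hrD : r ∈ Dp p U := by
    have : r = e⁻¹ * (e * r) := by group
    rw [this]
    exact (Dp p U).mul_mem ((Dp p U).inv_mem (d.WB_E_le_Dp he)) hg
  obtain ⟨x, hx, j, rfl⟩ := d.gen r hr hrD
  exact ⟨e, he, x, hx, j, rfl⟩

theorem WD.center [Finite G] {p : ℕ} [Fact p.Prime] {U Z E R : Subgroup G} {w : G}
    (d : WD p U Z E R w) :
    ∀ g ∈ Dp p U, (∀ y ∈ Dp p U, g * y = y * g) → ∃ x ∈ U, g = x ^ p := by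
  intro g hg hcen
  obtain ⟨e, he, r, hr, rfl⟩ := d.ER g
  have heZ : e ∈ Z := by
    apply d.Ecen e he
    intro y hy
    have h1 := hcen y (d.WB_E_le_Dp hy)
    have h2 := d.ERc y hy r hr
    rw [mul_assoc, ← h2, ← mul_assoc, ← mul_assoc] at h1
    exact mul_right_cancel h1
  have heU : e ∈ U := ((d.hZ e).1 heZ).1
  have hgR : e * r ∈ R := R.mul_mem (d.UR heU) hr
  have hgU : e * r ∈ U := d.RU _ hgR (fun u hu => hcen u (d.U_le_Dp hu))
  exact d.cent_w _ hgU (hcen w d.wD).symm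

end Cfsg.Agent.Lib.Helper65.Symp
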