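import Cfsg.Agent.Lib.Helper65.Symp.Defs
import Cfsg.Agent.Lib.Helper65.Symp.WA
import Cfsg.Agent.Lib.Helper65.Symp.WB

/-!
# S3762 farm (helper65), piece [WC]   (file Cfsg/Agent/Lib/Helper65/Symp/WC.lean)

PROOF.  Let T := {g | ∀ generator s ∈ E ∪ U ∪ {w}, ⁅g, s⁆ ∈ Z}.  Since Z is central in G, for fixed s the map g ↦ ⁅g, s⁆ is multiplicative modulo nothing:
⁅g g', s⁆ = g ⁅g', s⁆ g⁻¹ ⁅g, s⁆ = ⁅g', s⁆ ⁅g, s⁆ when ⁅g', s⁆ ∈ Z.  So "commuting modulo Z" Cz(s) := {g | ⁅g, s⁆ ∈ Z} is a subgroup, and g ∈ Cz(s) ↔ s ∈ Cz(g).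
E, U, w pairwise commute modulo Z: Ecomm, EU, ERc (w ∈ R, U ≤ R), U commutative, WA.comm_w.  By WB.dec every element of Dp p U is a product e x w^j, so two such elements commute modulo Z.
-/

set_option autoImplicit false

namespace Cfsg.Agent.Lib.Helper65.Symp

open Subgroup
open scoped commutatorElement

variable {G : Type*} [Group G]

theorem WC_symm (Z : Subgroup G) {a b : G} (h : ⁅a, b⁆ ∈ Z) : ⁅b, a⁆ ∈ Z := by
  rw [← commutatorElement_inv]; exact Z.inv_mem h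

theorem WC_mul_left (Z : Subgroup G) (hZ : ∀ z ∈ Z, ∀ g : G, g * z = z * g) {a b s : G}
    (ha : ⁅a, s⁆ ∈ Z) (hb : ⁅b, s⁆ ∈ Z) : ⁅a * b, s⁆ ∈ Z := by
  have he : ⁅a * b, s⁆ = a * ⁅b, s⁆ * a⁻¹ * ⁅a, s⁆ := by
    simp only [commutatorElement_def]; group
  rw [he, hZ _ hb a, mul_inv_cancel_right]
  exact Z.mul_mem hb ha

theorem WC_mul_right (Z : Subgroup G) (hZ : ∀ z ∈ Z, ∀ g : G, g * z = z * g) {a b s : G}
    (ha : ⁅s, a⁆ ∈ Z) (hb : ⁅s, b⁆ ∈ Z) : ⁅s, a * b⁆ ∈ Z :=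
  WC_symm Z (WC_mul_left Z hZ (WC_symm Z ha) (WC_symm Z hb))

theorem WC_pow_left (Z : Subgroup G) (hZ : ∀ z ∈ Z, ∀ g : G, g * z = z * g) {a s : G}
    (ha : ⁅a, s⁆ ∈ Z) (j : ℕ) : ⁅a ^ j, s⁆ ∈ Z := by
  induction j with
  | zero => simp
  | succ j ih => rw [pow_succ]; exact WC_mul_left Z hZ ih ha

theorem WC_pow_right (Z : Subgroup G) (hZ : ∀ z ∈ Z, ∀ g : G, g * z = z * g) {a s : G}
    (ha : ⁅s, a⁆ ∈ Z) (j : ℕ) : ⁅s, a ^ j⁆ ∈ Z :=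
  WC_symm Z (WC_pow_left Z hZ (WC_symm Z ha) j)

theorem WC_of_comm (Z : Subgroup G) {a b : G} (h : a * b = b * a) : ⁅a, b⁆ ∈ Z := by
  rw [commutatorElement_eq_one_iff_mul_comm.2 h]; exact Z.one_mem

theorem WD.comm {p : ℕ} {U Z E R : Subgroup G} {w : G} (d : WD p U Z E R w) :
    ∀ g ∈ Dp p U, ∀ g' ∈ Dp p U, ⁅g, g'⁆ ∈ Z := by
  intro g hg g' hg'
  obtain ⟨e, he, x, hx, j, rfl⟩ := d.dec g hg
  obtain ⟨e', he', x', hx', j', rfl⟩ := d.dec g' hg'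
  have hZ := d.Zcen
  have hwj : w ^ j ∈ R := R.pow_mem d.wR j
  have hwj' : w ^ j' ∈ R := R.pow_mem d.wR j'
  apply WC_mul_left Z hZ
  · apply WC_mul_right Z hZ (d.Ecomm e he e' he')
    apply WC_mul_right Z hZ (WC_of_comm Z (d.EU e he x' hx'))
    exact WC_of_comm Z (d.ERc e he _ hwj')
  · apply WC_mul_left Z hZ
    · apply WC_mul_right Z hZ (WC_of_comm Z (d.EU e' he' x hx).symm)
      apply WC_mul_right Z hZ (WC_of_comm Z (d.U_comm x hx x' hx'))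
      exact WC_pow_right Z hZ (d.comm_w x hx) j'
    · apply WC_mul_right Z hZ (WC_of_comm Z (d.ERc e' he' _ hwj).symm)
      apply WC_mul_right Z hZ
      · exact WC_pow_left Z hZ (WC_symm Z (d.comm_w x' hx')) j
      · exact WC_of_comm Z ((Commute.refl w).pow_pow j j')

end Cfsg.Agent.Lib.Helper65.Symp
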