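import Cfsg.Agent.Lib.Helper65.Symp.Defs
import Cfsg.Agent.Lib.Helper65.Symp.PW
import Cfsg.Agent.Lib.Helper65.Symp.WA
import Cfsg.Agent.Lib.Helper65.Symp.WB
import Cfsg.Agent.Lib.Helper65.Symp.WC

/-!
# S3762 farm (helper65), piece [WP]   (file Cfsg/Agent/Lib/Helper65/Symp/WP.lean)

PROOF.  g = e (x w^j) (WB.dec); e commutes with x w^j ∈ R: g^p = e^p (x w^j)^p.  e^p ∈ Z (Epow) is a p-th power in U (WA.Z_pow).
PW.mul_pow_of_comm for x, w^j with c := ⁅w^j, x⁆ ∈ Z (central; c ∈ Z since ⁅x, w⁆ ∈ Z and commuting modulo the central Z is a subgroup condition, or induction on j):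
(x w^j)^p = x^p (w^j)^p c^(p(p-1)/2), and c^(..) ∈ Z is a p-th power in U.  (w^j)^p = (w^p)^j, w^p ∈ U commutes with w, so w^p = y^p with y ∈ U (WA.cent_w).
A product of p-th powers of elements of the commutative group U is a p-th power (mul_pow for commuting elements).
-/

set_option autoImplicit false

namespace Cfsg.Agent.Lib.Helper65.Symp

open Subgroup
open scoped commutatorElement

variable {G : Type*} [Group G]

theorem WD.pow [Finite G] {p : ℕ} [Fact p.Prime] {U Z E R : Subgroup G} {w : G}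
    (d : WD p U Z E R w) : ∀ g ∈ Dp p U, ∃ x ∈ U, g ^ p = x ^ p := by
  intro g hg
  obtain ⟨e, he, x, hx, j, rfl⟩ := d.dec g hg
  have hZ := d.Zcen
  have hwj : w ^ j ∈ R := R.pow_mem d.wR j
  have hxw : x * w ^ j ∈ R := R.mul_mem (d.UR hx) hwj
  have hc1 : Commute e (x * w ^ j) := d.ERc e he _ hxw
  obtain ⟨a, ha, hae⟩ := d.Z_pow _ (d.Epow e he)
  have hcZ : ⁅w ^ j, x⁆ ∈ Z := WC_pow_left Z hZ (WC_symm Z (d.comm_w x hx)) j
  have h2 := mul_pow_of_comm x (w ^ j) (hZ _ hcZ x).symm (hZ _ hcZ (w ^ j)).symm p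
  obtain ⟨b, hb, hbc⟩ := d.Z_pow _ (Z.pow_mem hcZ (p * (p - 1) / 2))
  obtain ⟨y, hy, hyw⟩ := d.cent_w _ d.wp ((Commute.refl w).pow_right p)
  have h3 : (w ^ j) ^ p = (y ^ j) ^ p := by
    rw [← pow_mul, mul_comm, pow_mul, hyw, ← pow_mul, ← pow_mul, mul_comm]
  have hyj : y ^ j ∈ U := U.pow_mem hy j
  refine ⟨a * (x * y ^ j * b), U.mul_mem ha (U.mul_mem (U.mul_mem hx hyj) hb), ?_⟩
  have c1 : Commute x (y ^ j) := d.U_comm _ hx _ hyj
  have c2 : Commute (x * y ^ j) b := d.U_comm _ (U.mul_mem hx hyj) _ hb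
  have c3 : Commute a (x * y ^ j * b) := d.U_comm _ ha _ (U.mul_mem (U.mul_mem hx hyj) hb)
  rw [hc1.mul_pow, h2, hae, hbc, h3, c3.mul_pow, c2.mul_pow, c1.mul_pow]

end Cfsg.Agent.Lib.Helper65.Symp
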