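import Cfsg.Agent.Lib.Helper65.Symp.Defs
import Cfsg.Agent.Lib.Helper65.Symp.ES
import Cfsg.Agent.Lib.Helper65.Symp.WA
import Cfsg.Agent.Lib.Helper65.Symp.WB
import Cfsg.Agent.Lib.Helper65.Symp.WC
import Cfsg.Agent.Lib.Helper65.Symp.WP

/-!
# S3762 farm (helper65), piece [ET]   (file Cfsg/Agent/Lib/Helper65/Symp/ET.lean)

PROOF.  For x ∈ U: x^4 = 1 so (x^2)^2 = 1, x^2 ∈ Z (hZ), central in G.  Hence Dp 2 U = ⊤.  ES.extraspecial_of with E := ⊤, Z:
hcen: g central ⇒ g = x^2 ∈ Z (WB.center).  hpow: g^2 = x^2 ∈ Z (WP.pow).  hcomm: WC.comm.  hna: w does not centralize U (else w ∈ U by RU).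
-/

set_option autoImplicit false

namespace Cfsg.Agent.Lib.Helper65.Symp

open Subgroup
open scoped commutatorElement

variable {G : Type*} [Group G]

theorem WD.extraspecial_top [Finite G] {U Z E R : Subgroup G} {w : G} (d : WD 2 U Z E R w)
    (h4 : Nat.card U = 4) : Cfsg.IsExtraspecial 2 ↥(⊤ : Subgroup G) := by
  haveI : Fact (Nat.Prime 2) := ⟨Nat.prime_two⟩
  have hsq : ∀ x ∈ U, x ^ 2 ∈ Z := by
    intro x hx
    rw [d.hZ]
    refine ⟨U.pow_mem hx 2, ?_⟩
    have h : x ^ 4 = 1 := by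
      have h := pow_card_eq_one' (x := (⟨x, hx⟩ : U))
      rw [h4] at h
      simpa using congrArg Subtype.val h
    rw [← pow_mul]
    exact h
  have hD : ∀ g : G, g ∈ Dp 2 U := by
    intro g
    rw [mem_Dp]
    intro x hx
    exact (d.Zcen _ (hsq x hx) g).symm
  apply extraspecial_of d.pG ⊤ Z le_top d.cardZ
  · intro z hz y _
    exact (d.Zcen z hz y).symm
  · intro x _ hx
    obtain ⟨y, hy, hxy⟩ := d.center x (hD x) (fun y _ => hx y (mem_top y))
    rw [hxy]
    exact hsq y hy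
  · intro x _
    obtain ⟨y, hy, hxy⟩ := d.pow x (hD x)
    rw [hxy]
    exact hsq y hy
  · intro x _ y _
    exact d.comm x (hD x) y (hD y)
  · by_contra hcon
    push_neg at hcon
    exact d.wU (d.RU w d.wR (fun u _ => hcon w (mem_top _) u (mem_top _)))

end Cfsg.Agent.Lib.Helper65.Symp
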