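import Cfsg.Agent.Lib.Helper65.Symp.Defs
import Cfsg.Agent.Lib.Helper65.Symp.PW

/-!
# S3762 farm (helper65), piece [EX]   (file Cfsg/Agent/Lib/Helper65/Symp/EX.lean)

PROOF.  L := {x ∈ D | x^p ∈ Z0 p Z} is a subgroup (Cl2.mul_pow) containing Z.  Take E maximal among
subgroups with Z ≤ E ≤ L, E ⊓ A = Z.
-/

set_option autoImplicit false

namespace Cfsg.Agent.Lib.Helper65.Symp

open Subgroup
open scoped commutatorElement

variable {G : Type*} [Group G]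

/-- the subgroup `L` -/
def EX_L {p : ℕ} [Fact p.Prime] {D A Z : Subgroup G} (c : Cl2 p D A Z) : Subgroup G where
  carrier := {x | x ∈ D ∧ x ^ p ∈ Z0 p Z}
  one_mem' := ⟨D.one_mem, by simp⟩
  mul_mem' := by
    rintro x y ⟨hx, hxp⟩ ⟨hy, hyp⟩
    obtain ⟨z, hz, hzeq⟩ := c.mul_pow hx hy
    exact ⟨D.mul_mem hx hy, by rw [hzeq]; exact mul_mem (mul_mem hxp hyp) hz⟩
  inv_mem' := by
    rintro x ⟨hx, hxp⟩
    exact ⟨D.inv_mem hx, by rw [inv_pow]; exact inv_mem hxp⟩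

theorem EX_sup (E : Subgroup G) (x : G) (hn : ∀ e ∈ E, ∀ i : ℤ, x ^ i * e * (x ^ i)⁻¹ ∈ E) :
    ∀ g ∈ E ⊔ zpowers x, ∃ e ∈ E, ∃ i : ℤ, g = e * x ^ i := by
  let E' : Subgroup G :=
    { carrier := {g | ∃ e ∈ E, ∃ i : ℤ, g = e * x ^ i}
      one_mem' := ⟨1, E.one_mem, 0, by simp⟩
      mul_mem' := by
        rintro _ _ ⟨e, he, i, rfl⟩ ⟨f, hf, j, rfl⟩
        refine ⟨e * (x ^ i * f * (x ^ i)⁻¹), E.mul_mem he (hn f hf i), i + j, ?_⟩
        rw [zpow_add]; group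
      inv_mem' := by
        rintro _ ⟨e, he, i, rfl⟩
        refine ⟨x ^ (-i) * e⁻¹ * (x ^ (-i))⁻¹, hn _ (E.inv_mem he) _, -i, ?_⟩
        group }
  have h1 : E ⊔ zpowers x ≤ E' := by
    rw [sup_le_iff, zpowers_le]
    exact ⟨fun e he => ⟨e, he, 0, by simp⟩, ⟨1, E.one_mem, 1, by simp⟩⟩
  intro g hg
  exact h1 hg

theorem Cl2.exists_E [Finite G] {p : ℕ} [Fact p.Prime] {D A Z : Subgroup G} (c : Cl2 p D A Z)
    (hcl : ∀ x ∈ D, ∃ a ∈ A, (x * a) ^ p ∈ Z0 p Z) :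
    ∃ E : Subgroup G, Z ≤ E ∧ E ≤ D ∧ E ⊓ A = Z ∧ (∀ x ∈ D, ∃ e ∈ E, ∃ a ∈ A, x = e * a) ∧
      ∀ e ∈ E, e ^ p ∈ Z0 p Z := by
  have hp : p.Prime := Fact.out
  have hZL : Z ≤ EX_L c := fun z hz => ⟨c.A_le (c.ZA hz), by rw [c.Z_pow hz]; exact one_mem _⟩
  have hLD : EX_L c ≤ D := fun x hx => hx.1
  let S : Set (Subgroup G) := {E | Z ≤ E ∧ E ≤ EX_L c ∧ E ⊓ A = Z}
  have hSne : S.Nonempty := ⟨Z, le_rfl, hZL, inf_eq_left.2 c.ZA⟩
  obtain ⟨E, hE⟩ := (Set.toFinite S).exists_maximal hSne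
  obtain ⟨⟨hZE, hEL, hEA⟩, hmax⟩ := hE
  have key : ∀ x ∈ EX_L c, ∃ e ∈ E, ∃ a ∈ A, x = e * a := by
    intro x hx
    by_contra hcon
    push Not at hcon
    have hn : ∀ e ∈ E, ∀ i : ℤ, x ^ i * e * (x ^ i)⁻¹ ∈ E := by
      intro e he i
      have h1 : ⁅x ^ i, e⁆ ∈ Z := c.comm _ (D.zpow_mem hx.1 i) e (hLD (hEL he))
      have h2 : x ^ i * e * (x ^ i)⁻¹ = ⁅x ^ i, e⁆ * e := by rw [commutatorElement_def]; group
      rw [h2]; exact E.mul_mem (hZE h1) he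
    have hsup := EX_sup E x hn
    have hE'S : E ⊔ zpowers x ∈ S := by
      refine ⟨hZE.trans le_sup_left, sup_le hEL (by rw [zpowers_le]; exact hx), ?_⟩
      apply le_antisymm
      · rintro g ⟨hgE, hgA⟩
        obtain ⟨e, he, i, rfl⟩ := hsup g hgE
        by_cases hpi : (p : ℤ) ∣ i
        · obtain ⟨k, rfl⟩ := hpi
          have h1 : x ^ ((p : ℤ) * k) ∈ Z := by
            rw [zpow_mul, zpow_natCast]; exact Z.zpow_mem (Z0_le p Z hx.2) k
          rw [← hEA]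
          exact ⟨E.mul_mem he (hZE h1), hgA⟩
        · exfalso
          have hcop : IsCoprime (p : ℤ) i :=
            (Nat.prime_iff_prime_int.1 hp).coprime_iff_not_dvd.2 hpi
          obtain ⟨t, s, hst⟩ := hcop
          have hgA' : e * x ^ i ∈ A := hgA
          obtain ⟨a, ha⟩ : ∃ a, a = e * x ^ i := ⟨_, rfl⟩
          rw [← ha] at hgA'
          have hxi : x ^ i = e⁻¹ * a := by rw [ha]; group
          have hae : Commute e⁻¹ a := (c.central hgA' (D.inv_mem (hLD (hEL he)))).symm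
          have h5 : x = (e⁻¹ ^ s * (x ^ p) ^ t) * a ^ s := by
            calc x = x ^ (i * s + (p : ℤ) * t) := by
                  rw [show i * s + (p : ℤ) * t = 1 by linarith, zpow_one]
              _ = (x ^ i) ^ s * (x ^ p) ^ t := by
                  rw [zpow_add, zpow_mul, zpow_mul, zpow_natCast]
              _ = e⁻¹ ^ s * (a ^ s * (x ^ p) ^ t) := by
                  rw [hxi, hae.mul_zpow, mul_assoc]
              _ = e⁻¹ ^ s * ((x ^ p) ^ t * a ^ s) := by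
                  rw [c.central (A.zpow_mem hgA' s) (D.zpow_mem (D.pow_mem hx.1 p) t)]
              _ = (e⁻¹ ^ s * (x ^ p) ^ t) * a ^ s := by rw [mul_assoc]
          exact hcon _ (E.mul_mem (E.zpow_mem (E.inv_mem he) s)
            (E.zpow_mem (hZE (Z0_le p Z hx.2)) t)) _ (A.zpow_mem hgA' s) h5
      · exact le_inf (hZE.trans le_sup_left) c.ZA
    have h3 : E ⊔ zpowers x ≤ E := hmax hE'S le_sup_left
    have hxE : x ∈ E := h3 (mem_sup_right (mem_zpowers x))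
    exact hcon x hxE 1 A.one_mem (by simp)
  refine ⟨E, hZE, hEL.trans hLD, hEA, ?_, fun e he => (hEL he).2⟩
  intro x hx
  obtain ⟨a, ha, hxa⟩ := hcl x hx
  obtain ⟨e, he, a', ha', heq⟩ := key (x * a) ⟨D.mul_mem hx (c.A_le ha), hxa⟩
  refine ⟨e, he, a' * a⁻¹, A.mul_mem ha' (A.inv_mem ha), ?_⟩
  rw [← mul_assoc, ← heq]; group

end Cfsg.Agent.Lib.Helper65.Symp
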