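import Cfsg.Agent.Lib.Helper65.Symp.Defs
import Cfsg.Agent.Lib.Helper65.Symp.CL
import Cfsg.Agent.Lib.Helper65.Symp.WA
import Cfsg.Agent.Lib.Helper65.Symp.WB
import Cfsg.Agent.Lib.Helper65.Symp.WC
import Cfsg.Agent.Lib.Helper65.Symp.WP
import Cfsg.Agent.Lib.Helper65.Symp.DC

/-!
# S3762 farm (helper65), piece [GC]   (file Cfsg/Agent/Lib/Helper65/Symp/GC.lean)

PROOF.  D := Dp p U, A := D ⊓ centralizer D.  Cl2 p D A Z: ZA (Zcen), cardZ, comm = WC.comm, pow: g^p = x^p (WP.pow), x^p ∈ D (U ≤ D) and x^p commutes with D by mem_Dp.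
CL.claim (d.pG, d.symp, DC.Dp_char, d.Zchar) for a generator u of U (u ∈ D): a ∈ A with (u a)^p ∈ Z0 p Z.  WB.center: a = x^p, x ∈ U, x = u^k.  So u^(p(1+pk)) ∈ Z0 p Z.
p odd: u^(p(1+pk)) = 1, so |U| = orderOf u divides p(1+pk), |U| a power of p, so |U| ∣ p; then x^p = 1 for all x ∈ U, U = Z (hZ) central, w ∈ U by RU: contradiction.  So p = 2.
p = 2: u^(2(1+2k)) ∈ Z so u^(4(1+2k)) = 1, |U| ∣ 4.  |U| ∤ 2 as before (U ≠ Z).  So |U| = 4.
-/

set_option autoImplicit false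

namespace Cfsg.Agent.Lib.Helper65.Symp

open Subgroup
open scoped commutatorElement

variable {G : Type*} [Group G]

theorem WD.small [Finite G] {p : ℕ} [Fact p.Prime] {U Z E R : Subgroup G} {w : G}
    (d : WD p U Z E R w) : p = 2 ∧ Nat.card U = 4 := by
  have c : Cl2 p (Dp p U) (Dp p U ⊓ centralizer (Dp p U : Set G)) Z := by
    refine ⟨rfl, ?_, d.cardZ, d.comm, ?_⟩
    · intro z hz
      refine ⟨?_, ?_⟩
      · show z ∈ Dp p U
        rw [mem_Dp]
        intro x _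
        exact d.Zcen z hz (x ^ p)
      · show z ∈ centralizer (Dp p U : Set G)
        rw [mem_centralizer_iff]
        intro h _
        exact d.Zcen z hz h
    · intro x hx
      obtain ⟨y, hy, hxy⟩ := d.pow x hx
      rw [hxy]
      refine ⟨(Dp p U).pow_mem (d.U_le_Dp hy) p, ?_⟩
      show y ^ p ∈ centralizer (Dp p U : Set G)
      rw [mem_centralizer_iff]
      intro h hh
      exact (mem_Dp.1 hh y hy).symm
  have claim := c.claim d.pG d.symp (Dp_char p d.Uchar) d.Zchar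
  obtain ⟨u, hu⟩ := d.Ucyc.exists_generator
  obtain ⟨a, ha, hua⟩ := claim u.1 (d.U_le_Dp u.2)
  obtain ⟨x, hxU, hax⟩ := d.center a ha.1 (fun y hy => ((mem_centralizer_iff.1 ha.2) y hy).symm)
  obtain ⟨k, hk⟩ := Subgroup.mem_zpowers_iff.1 (hu ⟨x, hxU⟩)
  have hk' : (u : G) ^ k = x := by
    have := congrArg Subtype.val hk
    simpa using this
  have h1 : ((u : G) * a) ^ p = ((u : G) ^ p) ^ (1 + k * p) := by
    have h2 : (u : G) * a = (u : G) ^ (1 + k * p) := by
      rw [hax, ← hk', zpow_add, zpow_one, zpow_mul, zpow_natCast]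
    rw [h2, ← zpow_natCast, ← zpow_natCast, ← zpow_mul, ← zpow_mul, mul_comm]
  rw [h1] at hua
  have hupZ : (u : G) ^ p ∈ Z0 p Z := CL_mem_of_zpow_mem d.pG _ k _ hua
  have hup1 : (u : G) ^ p ≠ 1 := by
    intro h
    apply d.wU
    apply d.RU w d.wR
    intro y hy
    have hyZ : y ∈ Z := by
      rw [d.hZ]
      refine ⟨hy, ?_⟩
      obtain ⟨j, hj⟩ := Subgroup.mem_zpowers_iff.1 (hu ⟨y, hy⟩)
      have hj' : (u : G) ^ j = y := by
        have := congrArg Subtype.val hj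
        simpa using this
      rw [← hj', ← zpow_natCast, ← zpow_mul, mul_comm, zpow_mul, zpow_natCast, h, one_zpow]
    exact d.Zcen y hyZ w
  have hp2 : p = 2 := by
    by_contra hp
    rw [Z0_odd hp] at hupZ
    exact hup1 (Subgroup.mem_bot.1 hupZ)
  refine ⟨hp2, ?_⟩
  subst hp2
  rw [Z0_two] at hupZ
  have h4 : ((u : G) ^ 2) ^ 2 = 1 := ((d.hZ _).1 hupZ).2
  have ho : orderOf (u : G) = 2 ^ (1 + 1) := by
    apply orderOf_eq_prime_pow
    · simpa using hup1
    · rw [← h4, ← pow_mul]; norm_num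
  have hcard : Nat.card U = orderOf u := (orderOf_eq_card_of_forall_mem_zpowers hu).symm
  rw [hcard, ← Subgroup.orderOf_coe, ho]; norm_num

end Cfsg.Agent.Lib.Helper65.Symp
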