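import Cfsg.Agent.Lib.Helper65.Symp.Defs

/-!
# S3762 farm (helper65), piece [SM]   (by helper73)
-/

set_option autoImplicit false

namespace Cfsg.Agent.Lib.Helper65.Symp

open Subgroup
open scoped commutatorElement

variable {G : Type*} [Group G]

theorem small_case [Finite G] {U Z E R : Subgroup G} (c : Ctx 2 U Z E R)
    (h : Nat.card R = 2 * Nat.card U) (h16 : ¬ 16 ≤ Nat.card R) :
    Nat.card ↥(R ⊓ Dp 2 U) = 2 * Nat.card U := by
  have : Fact (Nat.Prime 2) := ⟨Nat.prime_two⟩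
  obtain ⟨n, hn⟩ := (c.pG.to_subgroup U).exists_card_eq
  have hn2 : n ≤ 2 := by
    by_contra hlt
    push Not at hlt
    have : 2 ^ 3 ≤ 2 ^ n := Nat.pow_le_pow_right (by norm_num) hlt
    omega
  have h4 : ∀ x ∈ U, x ^ 4 = 1 := by
    intro x hx
    have h1 : (⟨x, hx⟩ : U) ^ (Nat.card U) = 1 := pow_card_eq_one'
    have hdvd : Nat.card U ∣ 4 := by
      rw [hn]; exact pow_dvd_pow 2 hn2
    obtain ⟨k, hk⟩ := hdvd
    have h2 : (⟨x, hx⟩ : U) ^ 4 = 1 := by rw [hk, pow_mul, h1, one_pow]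
    exact congrArg Subtype.val h2
  have htop : R ⊓ Dp 2 U = R := by
    apply inf_eq_left.mpr
    intro r _
    rw [mem_Dp]
    intro x hx
    have hxZ : x ^ 2 ∈ Z := (c.hZ _).2 ⟨U.pow_mem hx 2, by rw [← pow_mul]; exact h4 x hx⟩
    exact (c.Zcen _ hxZ r).symm
  rw [htop, h]

end Cfsg.Agent.Lib.Helper65.Symp
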