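import Cfsg.Agent.Lib.Helper65.Symp.Defs
import Cfsg.Agent.S3761

/-!
# S3762 farm (helper65), piece [TR]   (file Cfsg/Agent/Lib/Helper65/Symp/TR.lean)
-/

set_option autoImplicit false

namespace Cfsg.Agent.Lib.Helper65.Symp

open Subgroup
open scoped commutatorElement

variable {G : Type*} [Group G]

theorem TR_cent_closure {A : Type*} [Group A] (S : Set A) (m : A) :
    m ∈ centralizer (closure S : Set A) ↔ ∀ s ∈ S, s * m = m * s := by
  rw [mem_centralizer_iff]
  constructor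
  · intro h s hs
    exact h s (subset_closure hs)
  · intro h x hx
    have hx' : x ∈ closure S := hx
    induction hx' using closure_induction with
    | mem s hs => exact h s hs
    | one => simp
    | mul a b _ _ iha ihb =>
      rw [mul_assoc, ihb (by assumption), ← mul_assoc, iha (by assumption), mul_assoc]
    | inv a _ iha =>
      have := iha (by assumption)
      calc a⁻¹ * m = a⁻¹ * (m * a) * a⁻¹ := by group
        _ = a⁻¹ * (a * m) * a⁻¹ := by rw [this]
        _ = m * a⁻¹ := by group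

theorem transport [Finite G] {p : ℕ} [Fact p.Prime] (hG : IsPGroup p G) (U R : Subgroup G)
    (hUn : U.Normal) (hUc : IsCyclic U) (hUR : U ≤ R)
    (hRU : ∀ r ∈ R, (∀ u ∈ U, r * u = u * r) → r ∈ U)
    (hna : ∃ r ∈ R, ∃ r' ∈ R, r * r' ≠ r' * r) :
    (p = 2 ∧ Nat.card R = 2 * Nat.card U ∧ ((∃ m : ℕ, Nonempty (↥R ≃* DihedralGroup m)) ∨
      (∃ m : ℕ, Nonempty (↥R ≃* QuaternionGroup m)) ∨ Cfsg.IsQuasiDihedral ↥R)) ∨
    Nat.card ↥(R ⊓ Dp p U) = p * Nat.card U := by
  have hUcomm : ∀ u ∈ U, ∀ v ∈ U, u * v = v * u := by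
    obtain ⟨g, hg⟩ := hUc.exists_generator
    intro u hu v hv
    obtain ⟨i, hi⟩ := mem_zpowers_iff.1 (hg ⟨u, hu⟩)
    obtain ⟨j, hj⟩ := mem_zpowers_iff.1 (hg ⟨v, hv⟩)
    have : (⟨u, hu⟩ : U) * ⟨v, hv⟩ = ⟨v, hv⟩ * ⟨u, hu⟩ := by
      rw [← hi, ← hj, ← zpow_add, ← zpow_add, add_comm]
    exact congrArg Subtype.val this
  have hna' : ¬ IsMulCommutative ↥R := by
    intro h
    obtain ⟨r, hr, r', hr', hne⟩ := hna
    apply hne
    exact congrArg Subtype.val (h.is_comm.comm ⟨r, hr⟩ ⟨r', hr'⟩)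
  have hU'c : IsCyclic ↥(U.subgroupOf R) := (subgroupOfEquivOfLe hUR).isCyclic.2 hUc
  have hU'card : Nat.card ↥(U.subgroupOf R) = Nat.card U :=
    Nat.card_congr (subgroupOfEquivOfLe hUR).toEquiv
  obtain ⟨n, hn⟩ := IsPGroup.iff_card.1 (hG.to_subgroup U)
  have hC : centralizer ((U.subgroupOf R : Subgroup ↥R) : Set ↥R) = U.subgroupOf R := by
    ext r
    rw [mem_centralizer_iff, mem_subgroupOf]
    constructor
    · intro h
      exact hRU r.1 r.2 (fun u hu =>
        (congrArg Subtype.val (h ⟨u, hUR hu⟩ (mem_subgroupOf.2 hu))).symm)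
    · intro h u hu
      exact Subtype.ext (hUcomm u.1 (mem_subgroupOf.1 hu) r.1 h)
  rcases Cfsg.Agent.S3761.result (hG.to_subgroup R) hna' (U.subgroupOf R) hU'c n
    (hU'card.trans hn) hC with ⟨h2, hcard, hiso⟩ | ⟨hrel, -⟩
  · left
    refine ⟨h2, ?_, hiso⟩
    rw [hcard, hn, h2, pow_succ, mul_comm]
  · right
    set M' : Subgroup ↥R :=
      centralizer (Cfsg.powerClosure p 1 (U.subgroupOf R) : Set ↥R) with hM'
    have hmemM : ∀ m : ↥R, m ∈ M' ↔ (m : G) ∈ Dp p U := by
      intro m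
      rw [hM', Cfsg.powerClosure, TR_cent_closure, mem_Dp]
      constructor
      · intro h x hx
        have := h (⟨x, hUR hx⟩ ^ (p ^ 1)) ⟨⟨x, hUR hx⟩, mem_subgroupOf.2 hx, rfl⟩
        rw [pow_one] at this
        exact congrArg Subtype.val this
      · rintro h _ ⟨x, hx, rfl⟩
        rw [pow_one]
        exact Subtype.ext (h x.1 (mem_subgroupOf.1 hx))
    have hmap : M'.map R.subtype = R ⊓ Dp p U := by
      ext g
      constructor
      · rintro ⟨m, hm, rfl⟩
        exact ⟨m.2, (hmemM m).1 hm⟩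
      · rintro ⟨hgR, hgD⟩
        exact ⟨⟨g, hgR⟩, (hmemM _).2 hgD, rfl⟩
    have hcardM : Nat.card ↥(R ⊓ Dp p U) = Nat.card ↥M' := by
      rw [← hmap]; exact card_map_of_injective R.subtype_injective
    have hU'M : U.subgroupOf R ≤ M' := by
      intro u hu
      rw [hmemM, mem_Dp]
      intro x hx
      exact hUcomm _ (U.pow_mem hx p) _ (mem_subgroupOf.1 hu)
    have h1 := index_mul_card ((U.subgroupOf R).subgroupOf M')
    rw [Nat.card_congr (subgroupOfEquivOfLe hU'M).toEquiv, hU'card] at h1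
    have h2 : ((U.subgroupOf R).subgroupOf M').index = p := hrel
    rw [hcardM, ← h1, h2]

end Cfsg.Agent.Lib.Helper65.Symp
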