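import Cfsg.Agent.Lib.Helper65.Symp.Defs

/-!
# S3762 farm (helper65), piece [WX]   (by helper73)
-/

set_option autoImplicit false

namespace Cfsg.Agent.Lib.Helper65.Symp

open Subgroup
open scoped commutatorElement

variable {G : Type*} [Group G]

theorem exists_w [Finite G] {p : ℕ} [Fact p.Prime] {U Z E R : Subgroup G} (c : Ctx p U Z E R)
    (hM : Nat.card ↥(R ⊓ Dp p U) = p * Nat.card U) : ∃ w : G, WD p U Z E R w := by
  have hp : p.Prime := Fact.out
  have := c.Ucyc
  have := c.Uchar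
  have : U.Normal := inferInstance
  have hUcomm : ∀ x ∈ U, ∀ y ∈ U, x * y = y * x := by
    intro x hx y hy
    have := (IsCyclic.isMulCommutative (α := U)).is_comm.comm ⟨x, hx⟩ ⟨y, hy⟩
    exact congrArg Subtype.val this
  have hUM : U ≤ R ⊓ Dp p U := by
    refine le_inf c.UR ?_
    intro g hg
    rw [mem_Dp]
    intro x hx
    exact hUcomm _ (U.pow_mem hx p) _ hg
  have hUpos : 0 < Nat.card U := Nat.card_pos
  obtain ⟨w, hwM, hwU⟩ : ∃ w ∈ R ⊓ Dp p U, w ∉ U := by
    by_contra hcon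
    push Not at hcon
    have h1 : R ⊓ Dp p U = U := le_antisymm hcon hUM
    rw [h1] at hM
    have h2 : 2 ≤ p := hp.two_le
    nlinarith
  have hHM : U ⊔ zpowers w ≤ R ⊓ Dp p U := sup_le hUM (by rw [zpowers_le]; exact hwM)
  have hH : U ⊔ zpowers w = R ⊓ Dp p U := by
    apply Subgroup.eq_of_le_of_card_ge hHM
    obtain ⟨k, hk⟩ := Subgroup.card_dvd_of_le (le_sup_left : U ≤ U ⊔ zpowers w)
    have h2 := Subgroup.card_dvd_of_le hHM
    rw [hM, hk, mul_comm p] at h2
    have hkp : k ∣ p := Nat.dvd_of_mul_dvd_mul_left hUpos h2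
    rcases (Nat.dvd_prime hp).mp hkp with rfl | rfl
    · exfalso
      apply hwU
      have h3 : U = U ⊔ zpowers w :=
        Subgroup.eq_of_le_of_card_ge le_sup_left (by rw [hk, mul_one])
      rw [h3]
      exact (le_sup_right : zpowers w ≤ _) (mem_zpowers w)
    · rw [hM, hk, mul_comm]
  refine ⟨w, { c with
    wR := (mem_inf.mp hwM).1, wU := hwU, wD := (mem_inf.mp hwM).2, gen := ?_, wp := ?_ }⟩
  · intro m hmR hmD
    have hm : m ∈ U ⊔ zpowers w := by rw [hH]; exact ⟨hmR, hmD⟩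
    rw [Subgroup.mem_sup_of_normal_left] at hm
    obtain ⟨x, hx, z, hz, rfl⟩ := hm
    rw [← mem_powers_iff_mem_zpowers] at hz
    obtain ⟨j, rfl⟩ := (Submonoid.mem_powers_iff _ _).mp hz
    exact ⟨x, hx, j, rfl⟩
  · have hidx : (U.subgroupOf (R ⊓ Dp p U)).index = p := by
      have h1 := (U.subgroupOf (R ⊓ Dp p U)).card_mul_index
      rw [Nat.card_congr (Subgroup.subgroupOfEquivOfLe hUM).toEquiv, hM, mul_comm p] at h1
      exact Nat.eq_of_mul_eq_mul_left hUpos h1
    have h2 := Subgroup.pow_index_mem (U.subgroupOf (R ⊓ Dp p U)) ⟨w, hwM⟩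
    rw [hidx, mem_subgroupOf] at h2
    exact h2

end Cfsg.Agent.Lib.Helper65.Symp
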