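import Cfsg.Agent.Lib.Helper65.Symp.Defs
import Cfsg.Agent.Lib.Helper65.Symp.CL
import Cfsg.Agent.Lib.Helper65.Symp.EX
import Cfsg.Agent.Lib.Helper65.Symp.CR
import Cfsg.Agent.Lib.Helper65.Symp.CX
import Cfsg.Agent.Lib.Helper65.Symp.TR
import Cfsg.Agent.Lib.Helper65.Symp.WX
import Cfsg.Agent.Lib.Helper65.Symp.GC
import Cfsg.Agent.Lib.Helper65.Symp.ET
import Cfsg.Agent.Lib.Helper65.Symp.SM

/-!
# S3762: final assembly
-/

set_option autoImplicit false

namespace Cfsg.Agent.Lib.Helper65.Symp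

open Subgroup
open scoped commutatorElement

variable {G : Type*} [Group G]

theorem Ctx.finish {p : ℕ} {U Z E R : Subgroup G} (c : Ctx p U Z E R)
    (hE : E = Z ∨ Cfsg.IsExtraspecial p ↥E)
    (hR : IsCyclic R ∨ (p = 2 ∧ 16 ≤ Nat.card R ∧ ((∃ m : ℕ, Nonempty (↥R ≃* DihedralGroup m)) ∨
      (∃ m : ℕ, Nonempty (↥R ≃* QuaternionGroup m)) ∨ Cfsg.IsQuasiDihedral ↥R))) :
    Concl p G := by
  rcases hE with hE | hE
  · refine ⟨⊥, R, ?_, ?_, Or.inl rfl, hR⟩
    · intro e he r _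
      rw [mem_bot] at he
      rw [he, one_mul, mul_one]
    · rw [bot_sup_eq, eq_top_iff]
      intro g _
      obtain ⟨e, he, r, hr, rfl⟩ := c.ER g
      rw [hE] at he
      exact R.mul_mem (c.UR ((c.hZ e).mp he).1) hr
  · refine ⟨E, R, c.ERc, ?_, Or.inr hE, hR⟩
    rw [eq_top_iff]
    intro g _
    obtain ⟨e, he, r, hr, rfl⟩ := c.ER g
    exact mul_mem_sup he hr

theorem Ctx.concl [Finite G] {p : ℕ} [Fact p.Prime] {U Z E R : Subgroup G} (c : Ctx p U Z E R)
    (hE : E = Z ∨ Cfsg.IsExtraspecial p ↥E) : Concl p G := by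
  by_cases hab : ∀ r ∈ R, ∀ r' ∈ R, r * r' = r' * r
  · have hRU : R = U :=
      le_antisymm (fun r hr => c.RU r hr (fun u hu => hab r hr u (c.UR hu))) c.UR
    exact c.finish hE (Or.inl (hRU ▸ c.Ucyc))
  · push Not at hab
    obtain ⟨r, hr, r', hr', hne⟩ := hab
    have key : Nat.card ↥(R ⊓ Dp p U) = p * Nat.card U → Concl p G := by
      intro hM
      obtain ⟨w, d⟩ := exists_w c hM
      obtain ⟨h2, h4⟩ := d.small
      subst h2
      refine ⟨⊤, ⊥, ?_, sup_bot_eq _, Or.inr (d.extraspecial_top h4), Or.inl inferInstance⟩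
      intro e _ r hr
      rw [mem_bot] at hr
      rw [hr, one_mul, mul_one]
    haveI := c.Uchar
    rcases transport c.pG U R inferInstance c.Ucyc c.UR c.RU ⟨r, hr, r', hr', hne⟩ with
      ⟨h2, hcard, htype⟩ | hM
    · by_cases h16 : 16 ≤ Nat.card R
      · exact c.finish hE (Or.inr ⟨h2, h16, htype⟩)
      · subst h2
        exact key (small_case c hcard h16)
    · exact key hM

theorem main [Finite G] {p : ℕ} [Fact p.Prime] (hG : IsPGroup p G) (hs : SympType G) :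
    Concl p G := by
  rcases subsingleton_or_nontrivial G with hsub | hnt
  · refine ⟨⊥, ⊤, ?_, bot_sup_eq _, Or.inl rfl, Or.inl inferInstance⟩
    intro e _ r _
    exact Subsingleton.elim _ _
  · obtain ⟨H, U, Z, hHc, hUc, hZc, hUcyc, hU, c, hHG, hZ, hZcen⟩ := exists_crit hG hs
    obtain ⟨E, hZE, hEH, hEU, hdec, hEp⟩ := c.exists_E (c.claim hG hs hHc hZc)
    obtain ⟨ctx, hE⟩ := exists_ctx hG hs hUc hZc hUcyc hU c hHG hZ hZcen hZE hEH hEU hdec hEp
    exact ctx.concl hE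

end Cfsg.Agent.Lib.Helper65.Symp
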